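import Mathlib
import Cfsg.Agent.Lib.Helper45.EPStmt
import Cfsg.Agent.Lib.Helper53.TPFIXND

/-!
S5988 / SPLITW (call by helper45): an invariant nondegenerate `W` is `(W ⊓ Fix x) ⊥ R` with
`R = (x - 1) W` invariant, nondegenerate, without fixed vectors (`x ^ r = 1`, `r ≠ p`).
-/

set_option autoImplicit false

namespace Cfsg.Agent.Lib.Helper31.EPSPLITW

open Cfsg.Agent.Lib.Helper45.EPStmt
open Cfsg.Agent.Lib.Helper94.OPStmt (P NP FxP NDegP StabP)
open Cfsg.Agent.Lib.Helper53.TPFIXND (polar_eq_dot)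
open scoped Matrix

universe u

theorem main : SplitE.{u} := by
  intro F _ _ p _ _ d r _ hrp x hx hxr W hStab hND
  have hr : r.Prime := Fact.out
  have hp : p.Prime := Fact.out
  have hrF : (r : F) ≠ 0 := by
    intro h0
    rw [CharP.cast_eq_zero_iff F p r] at h0
    exact hrp ((Nat.prime_dvd_prime_iff_eq hp hr).mp h0).symm
  have hiso : ∀ g : Matrix.GeneralLinearGroup (P d) F,
      g ∈ Cfsg.isometryGroup F (Cfsg.quadFormPlus d F) → ∀ u v : P d → F,
      QuadraticMap.polar (Cfsg.quadFormPlus d F)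
        ((g : Matrix (P d) (P d) F) *ᵥ u)
        ((g : Matrix (P d) (P d) F) *ᵥ v) =
      QuadraticMap.polar (Cfsg.quadFormPlus d F) u v := by
    intro g hg u v
    have hQ : ∀ u' : P d → F, Cfsg.quadFormPlus d F
        ((g : Matrix (P d) (P d) F) *ᵥ u') = Cfsg.quadFormPlus d F u' :=
      fun u' => hg u' u'
    unfold QuadraticMap.polar
    rw [← Matrix.mulVec_add, hQ, hQ, hQ]
  have hfixpow : ∀ v : P d → F, (x : Matrix (P d) (P d) F) *ᵥ v = v →
      ∀ j : ℕ, ((x ^ j : Matrix.GeneralLinearGroup (P d) F) :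
        Matrix (P d) (P d) F) *ᵥ v = v := by
    intro v hv j
    induction j with
    | zero => simp
    | succ j ih =>
      rw [pow_succ, Units.val_mul, ← Matrix.mulVec_mulVec, hv, ih]
  have hsymm : ∀ u v : P d → F, QuadraticMap.polar (Cfsg.quadFormPlus d F) u v =
      QuadraticMap.polar (Cfsg.quadFormPlus d F) v u :=
    fun u v => QuadraticMap.polar_comm _ u v
  have hadd : ∀ a b v : P d → F, QuadraticMap.polar (Cfsg.quadFormPlus d F) (a + b) v =
      QuadraticMap.polar (Cfsg.quadFormPlus d F) a v +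
        QuadraticMap.polar (Cfsg.quadFormPlus d F) b v := by
    intro a b v
    rw [polar_eq_dot, polar_eq_dot, polar_eq_dot, add_dotProduct]
  have hsub : ∀ a b v : P d → F, QuadraticMap.polar (Cfsg.quadFormPlus d F) (a - b) v =
      QuadraticMap.polar (Cfsg.quadFormPlus d F) a v -
        QuadraticMap.polar (Cfsg.quadFormPlus d F) b v := by
    intro a b v
    rw [polar_eq_dot, polar_eq_dot, polar_eq_dot, sub_dotProduct]
  have hsum : ∀ (f : ℕ → P d → F) (v : P d → F),
      QuadraticMap.polar (Cfsg.quadFormPlus d F) (∑ j ∈ Finset.range r, f j) v =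
        ∑ j ∈ Finset.range r, QuadraticMap.polar (Cfsg.quadFormPlus d F) (f j) v := by
    intro f v
    rw [polar_eq_dot, sum_dotProduct]
    apply Finset.sum_congr rfl
    intro j _
    rw [polar_eq_dot]
  have hWx : ∀ w ∈ W, (x : Matrix (P d) (P d) F) *ᵥ w ∈ W := by
    intro w hw
    have := hStab (Submodule.mem_map_of_mem hw)
    rwa [Matrix.toLin'_apply] at this
  have hWpow : ∀ j : ℕ, ∀ w ∈ W, ((x ^ j : Matrix.GeneralLinearGroup (P d) F) :
      Matrix (P d) (P d) F) *ᵥ w ∈ W := by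
    intro j
    induction j with
    | zero => intro w hw; simpa using hw
    | succ j ih =>
      intro w hw
      rw [pow_succ', Units.val_mul, ← Matrix.mulVec_mulVec]
      exact hWx _ (ih w hw)
  have hmemF : ∀ v : P d → F, v ∈ FxP (x : Matrix (P d) (P d) F) ↔
      (x : Matrix (P d) (P d) F) *ᵥ v = v :=
    fun v => Cfsg.Agent.Lib.Helper94.OPStmt.mem_FxP _ v
  have key : ∀ v ∈ W ⊓ FxP (x : Matrix (P d) (P d) F), v ≠ 0 →
      ∃ w1 ∈ W ⊓ FxP (x : Matrix (P d) (P d) F),
        QuadraticMap.polar (Cfsg.quadFormPlus d F) w1 v ≠ 0 := by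
    intro v hv hv0
    obtain ⟨hvW, hvF⟩ := Submodule.mem_inf.mp hv
    rw [hmemF] at hvF
    obtain ⟨⟨w, hwW, hw⟩, -⟩ := hND v hvW hv0
    set f : ℕ → P d → F := fun j =>
      ((x ^ j : Matrix.GeneralLinearGroup (P d) F) :
        Matrix (P d) (P d) F) *ᵥ w with hf
    refine ⟨∑ j ∈ Finset.range r, f j, Submodule.mem_inf.mpr ⟨?_, ?_⟩, ?_⟩
    · exact Submodule.sum_mem _ (fun j _ => hWpow j w hwW)
    · rw [hmemF, Matrix.mulVec_sum]
      have hstep : ∀ j : ℕ, (x : Matrix (P d) (P d) F) *ᵥ f j = f (j + 1) := by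
        intro j
        rw [hf]
        show (x : Matrix (P d) (P d) F) *ᵥ
          (((x ^ j : Matrix.GeneralLinearGroup (P d) F) :
            Matrix (P d) (P d) F) *ᵥ w) =
          ((x ^ (j + 1) : Matrix.GeneralLinearGroup (P d) F) :
            Matrix (P d) (P d) F) *ᵥ w
        rw [pow_succ', Units.val_mul, Matrix.mulVec_mulVec]
      rw [Finset.sum_congr rfl (fun j _ => hstep j)]
      have h1 := Finset.sum_range_succ f r
      have h2 := Finset.sum_range_succ' f r
      have hfr : f r = f 0 := by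
        rw [hf]
        show ((x ^ r : Matrix.GeneralLinearGroup (P d) F) :
            Matrix (P d) (P d) F) *ᵥ w =
          ((x ^ 0 : Matrix.GeneralLinearGroup (P d) F) :
            Matrix (P d) (P d) F) *ᵥ w
        rw [hxr, pow_zero]
      rw [h1, hfr] at h2
      exact (add_right_cancel h2).symm
    · rw [hsum]
      have hterm : ∀ j ∈ Finset.range r,
          QuadraticMap.polar (Cfsg.quadFormPlus d F) (f j) v =
            QuadraticMap.polar (Cfsg.quadFormPlus d F) w v := by
        intro j _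
        have h1 := hiso (x ^ j) (Subgroup.pow_mem _ hx j) w v
        rw [hfixpow v hvF j] at h1
        exact h1
      rw [Finset.sum_congr rfl hterm, Finset.sum_const, Finset.card_range, nsmul_eq_mul]
      exact mul_ne_zero hrF hw
  have hND1 : NDegP d F (W ⊓ FxP (x : Matrix (P d) (P d) F)) := by
    intro v hv hv0
    obtain ⟨w1, hw1, hne⟩ := key v hv hv0
    refine ⟨⟨w1, hw1, hne⟩, ⟨w1, hw1, ?_⟩⟩
    rw [hsymm]
    exact hne
  have hNP : ∀ w : P d → F, NP (x : Matrix (P d) (P d) F) w =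
      (x : Matrix (P d) (P d) F) *ᵥ w - w := by
    intro w
    unfold NP
    rw [LinearMap.sub_apply, Matrix.toLin'_apply, LinearMap.id_apply]
  have hRW : W.map (NP (x : Matrix (P d) (P d) F)) ≤ W := by
    rintro u ⟨w, hw, rfl⟩
    rw [hNP]
    exact W.sub_mem (hWx w hw) hw
  have hRstab : StabP (x : Matrix (P d) (P d) F) (W.map (NP (x : Matrix (P d) (P d) F))) := by
    rintro _ ⟨u, ⟨w, hw, rfl⟩, rfl⟩
    refine ⟨(x : Matrix (P d) (P d) F) *ᵥ w, hWx w hw, ?_⟩
    rw [hNP, hNP, Matrix.toLin'_apply, Matrix.mulVec_sub]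
  have horth : ∀ u ∈ W.map (NP (x : Matrix (P d) (P d) F)),
      ∀ v ∈ FxP (x : Matrix (P d) (P d) F),
      QuadraticMap.polar (Cfsg.quadFormPlus d F) u v = 0 := by
    rintro u ⟨w, hw, rfl⟩ v hv
    rw [hmemF] at hv
    rw [hNP, hsub]
    have h1 := hiso x hx w v
    rw [hv] at h1
    rw [h1, sub_self]
  have hinf : W.map (NP (x : Matrix (P d) (P d) F)) ⊓ FxP (x : Matrix (P d) (P d) F) = ⊥ := by
    rw [eq_bot_iff]
    intro u hu
    obtain ⟨huR, huF⟩ := Submodule.mem_inf.mp hu
    rw [Submodule.mem_bot]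
    by_contra hu0
    obtain ⟨w1, hw1, hne⟩ := key u (Submodule.mem_inf.mpr ⟨hRW huR, huF⟩) hu0
    apply hne
    rw [hsymm]
    exact horth u huR w1 (Submodule.mem_inf.mp hw1).2
  have hrank : Module.finrank F ↥(W.map (NP (x : Matrix (P d) (P d) F))) +
      Module.finrank F ↥(W ⊓ FxP (x : Matrix (P d) (P d) F)) = Module.finrank F ↥W := by
    have h1 := LinearMap.finrank_range_add_finrank_ker
      ((NP (x : Matrix (P d) (P d) F)).comp W.subtype)
    rw [LinearMap.range_comp, Submodule.range_subtype, LinearMap.ker_comp] at h1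
    have h2 : Module.finrank F ↥(Submodule.comap W.subtype
        (LinearMap.ker (NP (x : Matrix (P d) (P d) F)))) =
        Module.finrank F ↥(W ⊓ FxP (x : Matrix (P d) (P d) F)) := by
      rw [← Submodule.finrank_map_subtype_eq W, Submodule.map_comap_subtype]
      rfl
    rw [h2] at h1
    exact h1
  have hsup : (W ⊓ FxP (x : Matrix (P d) (P d) F)) ⊔ W.map (NP (x : Matrix (P d) (P d) F)) =
      W := by
    apply Submodule.eq_of_le_of_finrank_le (sup_le inf_le_left hRW)
    have h1 := Submodule.finrank_sup_add_finrank_inf_eq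
      (W ⊓ FxP (x : Matrix (P d) (P d) F)) (W.map (NP (x : Matrix (P d) (P d) F)))
    have h2 : (W ⊓ FxP (x : Matrix (P d) (P d) F)) ⊓
        W.map (NP (x : Matrix (P d) (P d) F)) = ⊥ := by
      rw [eq_bot_iff, ← hinf]
      exact le_inf inf_le_right (inf_le_left.trans inf_le_right)
    rw [h2, finrank_bot, add_zero] at h1
    omega
  have hNDR : NDegP d F (W.map (NP (x : Matrix (P d) (P d) F))) := by
    intro u hu hu0
    obtain ⟨⟨w, hwW, hw⟩, -⟩ := hND u (hRW hu) hu0
    rw [← hsup] at hwW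
    obtain ⟨a, ha, b, hb, rfl⟩ := Submodule.mem_sup.mp hwW
    rw [hadd] at hw
    have h0 : QuadraticMap.polar (Cfsg.quadFormPlus d F) a u = 0 := by
      rw [hsymm]
      exact horth u hu a (Submodule.mem_inf.mp ha).2
    rw [h0, zero_add] at hw
    refine ⟨⟨b, hb, hw⟩, ⟨b, hb, ?_⟩⟩
    rw [hsymm]
    exact hw
  exact ⟨hND1, W.map (NP (x : Matrix (P d) (P d) F)), hRW, hRstab, hNDR, hinf, horth, hrank,
    hsup⟩

end Cfsg.Agent.Lib.Helper31.EPSPLITW
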