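import Mathlib
import Cfsg.Agent.Lib.Helper31.CoprimeGen
import Cfsg.Agent.Lib.Helper31.SigBasic

set_option autoImplicit false

/-! helper31: hyperplane generation for an elementary abelian `p`-group acting on a `p'`-group
(inside an ambient finite group), minimal invariant subgroups, and a coprime power lemma. -/

namespace Cfsg.Agent.Lib.Helper31.HypGen

open Cfsg.Agent.Lib.Helper31.SigBasic Cfsg.Agent.Lib.Helper31.CoprimeGen

variable {X : Type*} [Group X]

theorem card_mul_relIndex (H K : Subgroup X) (h : H ≤ K) :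
    Nat.card H * H.relIndex K = Nat.card K := by
  have := Subgroup.relIndex_mul_relIndex ⊥ H K bot_le h
  rwa [Subgroup.relIndex_bot_left, Subgroup.relIndex_bot_left] at this

/-- If `a` normalizes `R` and `r ∈ R` then `(r a)^k ∈ R a^k`. -/
theorem mul_pow_eq (R : Subgroup X) {a r : X} (ha : a ∈ Subgroup.normalizer (R : Set X))
    (hr : r ∈ R) (k : ℕ) : ∃ r' ∈ R, (r * a) ^ k = r' * a ^ k := by
  induction k with
  | zero => exact ⟨1, R.one_mem, by simp⟩
  | succ k ih =>
    obtain ⟨r', hr', h⟩ := ih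
    refine ⟨r' * (a ^ k * r * (a ^ k)⁻¹),
      R.mul_mem hr' (conj_mem_of_mem_normalizer (Subgroup.pow_mem _ ha k) hr), ?_⟩
    rw [pow_succ, h, pow_succ]; group

/-- If `a` normalizes `R`, `r ∈ R`, `(r a)^n = 1`, `a^m = 1` with `n, m` coprime, then `a ∈ R`. -/
theorem mem_of_mul_pow_coprime (R : Subgroup X) {a r : X}
    (ha : a ∈ Subgroup.normalizer (R : Set X)) (hr : r ∈ R) {n m : ℕ} (hcop : Nat.Coprime n m)
    (h1 : (r * a) ^ n = 1) (h2 : a ^ m = 1) : a ∈ R := by
  obtain ⟨r', hr', h⟩ := mul_pow_eq R ha hr n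
  rw [h1] at h
  have han : a ^ n ∈ R := by
    have h3 : a ^ n = r'⁻¹ := eq_inv_of_mul_eq_one_right h.symm
    rw [h3]; exact R.inv_mem hr'
  have hb := Nat.gcd_eq_gcd_ab n m
  rw [hcop.gcd_eq_one] at hb
  have h4 : a = (a ^ n) ^ (n.gcdA m) * (a ^ m) ^ (n.gcdB m) := by
    rw [← zpow_natCast, ← zpow_natCast, ← zpow_mul, ← zpow_mul, ← zpow_add, ← hb]; simp
  rw [h4, h2, one_zpow, mul_one]
  exact R.zpow_mem han _

/-- A minimal `a`-invariant subgroup of `K₀` not centralized by `a`. -/
theorem exists_minimal_invariant [Finite X] (a : X) (K₀ : Subgroup X)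
    (hK₀ : ∀ k ∈ K₀, a * k * a⁻¹ ∈ K₀) (x₀ : X) (hx₀ : x₀ ∈ K₀) (hax₀ : a * x₀ ≠ x₀ * a) :
    ∃ W : Subgroup X, W ≤ K₀ ∧ (∀ w ∈ W, a * w * a⁻¹ ∈ W) ∧ (∃ w ∈ W, a * w ≠ w * a) ∧
      ∀ W' : Subgroup X, W' ≤ W → (∀ w ∈ W', a * w * a⁻¹ ∈ W') → (∃ w ∈ W', a * w ≠ w * a) →
        W' = W := by
  let S : Set (Subgroup X) := {W | (∀ w ∈ W, a * w * a⁻¹ ∈ W) ∧ (∃ w ∈ W, a * w ≠ w * a)}
  have hK₀S : K₀ ∈ S := ⟨hK₀, x₀, hx₀, hax₀⟩
  obtain ⟨W, hWK, hWmin⟩ := (Set.toFinite S).exists_le_minimal hK₀S
  exact ⟨W, hWK, hWmin.prop.1, hWmin.prop.2, fun W' hW' h1 h2 =>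
    le_antisymm hW' (hWmin.le_of_le ⟨h1, h2⟩ hW')⟩

/-- Hyperplane lemma: an elementary abelian `p`-subgroup `A` normalizing, but not centralizing, a
`p'`-subgroup `K` has a subgroup `B` of index `p` whose centralizer in `K` is not centralized
by `A`. -/
theorem exists_hyperplane_aux [Finite X] {p : ℕ} [Fact p.Prime]
    (A : Subgroup X) (hAc : ∀ a ∈ A, ∀ b ∈ A, a * b = b * a) (hAp : ∀ a ∈ A, a ^ p = 1) :
    ∀ (n : ℕ) (K : Subgroup X), Nat.card K ≤ n → ¬ p ∣ Nat.card K →
      A ≤ Subgroup.normalizer (K : Set X) → ¬ (K ≤ Subgroup.centralizer (A : Set X)) →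
      ∃ B : Subgroup X, B ≤ A ∧ B.relIndex A = p ∧ ∃ a ∈ A, ∃ x ∈ K,
        x ∈ Subgroup.centralizer (B : Set X) ∧ a * x ≠ x * a := by
  have hp : p.Prime := Fact.out
  have hApg : IsPGroup p A := by
    intro a
    refine ⟨1, ?_⟩
    apply Subtype.ext
    simpa using hAp a a.2
  intro n
  induction n with
  | zero =>
    intro K hK
    have := Nat.card_pos (α := K)
    omega
  | succ n ih =>
    intro K hKn hKp hAK hnc
    set C := A ⊓ Subgroup.centralizer (K : Set X) with hC
    have hCA : C ≤ A := inf_le_left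
    have hex : ∃ a ∈ A, ∃ x ∈ K, a * x ≠ x * a := by
      by_contra hno
      push Not at hno
      apply hnc
      intro k hk
      rw [Subgroup.mem_centralizer_iff]
      intro a ha
      exact hno a ha k hk
    obtain ⟨a, haA, x0, hx0K, hax0⟩ := hex
    have haC : a ∉ C := by
      intro h
      have h1 := Subgroup.mem_centralizer_iff.mp h.2 x0 hx0K
      exact hax0 h1.symm
    by_cases hidx : C.relIndex A = p
    · refine ⟨C, hCA, hidx, a, haA, x0, hx0K, ?_, hax0⟩
      rw [Subgroup.mem_centralizer_iff]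
      intro c hc
      have h1 := Subgroup.mem_centralizer_iff.mp hc.2 x0 hx0K
      exact h1.symm
    · have hexb : ∃ b ∈ A, b ∉ C ⊔ Subgroup.zpowers a := by
        by_contra hno
        push Not at hno
        apply hidx
        have hAle : A ≤ C ⊔ Subgroup.zpowers a := fun b hb => hno b hb
        have hAeq : C ⊔ Subgroup.zpowers a = A :=
          le_antisymm (sup_le hCA (by rw [Subgroup.zpowers_le]; exact haA)) hAle
        have hn : Subgroup.zpowers a ≤ Subgroup.normalizer (C : Set X) := by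
          apply le_normalizer_of_conj_mem
          rintro _ ⟨k, rfl⟩ c hc
          have hcomm : Commute a c := hAc a haA c (hCA hc)
          have h2 : a ^ k * c = c * a ^ k := (hcomm.zpow_left k).eq
          show a ^ k * c * (a ^ k)⁻¹ ∈ C
          rw [h2]; simpa using hc
        have hdvd := card_sup_dvd C (Subgroup.zpowers a) hn
        rw [hAeq] at hdvd
        have hoa : orderOf a = p := orderOf_eq_prime (hAp a haA) (fun h1 => haC (h1 ▸ C.one_mem))
        rw [Nat.card_zpowers, hoa] at hdvd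
        have e := card_mul_relIndex C A hCA
        rw [← e] at hdvd
        have hpos : 0 < Nat.card C := Nat.card_pos
        have hdvd' : C.relIndex A ∣ p := Nat.dvd_of_mul_dvd_mul_left hpos hdvd
        rcases (Nat.dvd_prime hp).mp hdvd' with h1 | h1
        · exfalso
          rw [Subgroup.relIndex_eq_one] at h1
          exact haC (h1 haA)
        · exact h1
      obtain ⟨b, hbA, hbC⟩ := hexb
      have hab : a * b = b * a := hAc a haA b hbA
      have hgen := rank_two_generation A K hApg hKp hAK a b haA hbA hab (hAp a haA) (hAp b hbA)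
      have hexe : ∃ e ∈ A, e ∉ C ∧
          ¬ (K ⊓ Subgroup.centralizer {e} ≤ Subgroup.centralizer (A : Set X)) := by
        by_contra hno
        push Not at hno
        apply hnc
        refine hgen.trans (sup_le ?_ (iSup₂_le ?_))
        · exact hno b hbA (fun h => hbC (Subgroup.mem_sup_left h))
        · intro j hj
          refine hno (a * b ^ j) (A.mul_mem haA (A.pow_mem hbA j)) ?_
          intro h
          have hj' : j < p := Finset.mem_range.mp hj
          rcases Nat.eq_zero_or_pos j with rfl | hjpos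
          · apply haC; simpa using h
          · apply hbC
            have h1 : b ^ j ∈ C ⊔ Subgroup.zpowers a := by
              have h5 : b ^ j = a⁻¹ * (a * b ^ j) := by group
              rw [h5]
              exact Subgroup.mul_mem _
                (Subgroup.mem_sup_right (Subgroup.inv_mem _ (Subgroup.mem_zpowers a)))
                (Subgroup.mem_sup_left h)
            have h2 : b ^ p ∈ C ⊔ Subgroup.zpowers a := by
              rw [hAp b hbA]; exact Subgroup.one_mem _
            have hcop : Nat.Coprime j p :=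
              Nat.Coprime.symm ((Nat.Prime.coprime_iff_not_dvd hp).mpr
                (Nat.not_dvd_of_pos_of_lt hjpos hj'))
            have hb' := Nat.gcd_eq_gcd_ab j p
            rw [hcop.gcd_eq_one] at hb'
            have h6 : b = (b ^ j) ^ (j.gcdA p) * (b ^ p) ^ (j.gcdB p) := by
              rw [← zpow_natCast, ← zpow_natCast, ← zpow_mul, ← zpow_mul, ← zpow_add, ← hb']
              simp
            rw [h6]
            exact Subgroup.mul_mem _ (Subgroup.zpow_mem _ h1 _) (Subgroup.zpow_mem _ h2 _)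
      obtain ⟨e, heA, heC, hne⟩ := hexe
      set K₁ := K ⊓ Subgroup.centralizer ({e} : Set X) with hK₁
      have hK₁K : K₁ ≤ K := inf_le_left
      have hlt : Nat.card K₁ ≤ n := by
        by_contra hgt
        push Not at hgt
        have hEq : K₁ = K := Subgroup.eq_of_le_of_card_ge hK₁K (by omega)
        apply heC
        refine Subgroup.mem_inf.mpr ⟨heA, ?_⟩
        rw [Subgroup.mem_centralizer_iff]
        intro k hk
        have hk' : k ∈ K₁ := hEq ▸ hk
        exact (Subgroup.mem_centralizer_iff.mp hk'.2 e rfl).symm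
      have hK₁p : ¬ p ∣ Nat.card K₁ := fun h => hKp (h.trans (Subgroup.card_dvd_of_le hK₁K))
      have hAK₁ : A ≤ Subgroup.normalizer (K₁ : Set X) := by
        apply le_normalizer_of_conj_mem
        intro a' ha' k hk
        refine Subgroup.mem_inf.mpr ⟨conj_mem_of_mem_normalizer (hAK ha') hk.1, ?_⟩
        rw [Subgroup.mem_centralizer_iff]
        intro y hy
        rw [Set.mem_singleton_iff.mp hy]
        have h1 : Commute e a' := hAc e heA a' ha'
        have h2 : Commute e k := Subgroup.mem_centralizer_iff.mp hk.2 e rfl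
        exact ((h1.mul_right h2).mul_right h1.inv_right).eq
      obtain ⟨B, hBA, hBidx, a', ha', x, hx, hxB, hax⟩ := ih K₁ hlt hK₁p hAK₁ hne
      exact ⟨B, hBA, hBidx, a', ha', x, hK₁K hx, hxB, hax⟩

theorem exists_hyperplane [Finite X] {p : ℕ} [Fact p.Prime]
    (A : Subgroup X) (hAc : ∀ a ∈ A, ∀ b ∈ A, a * b = b * a) (hAp : ∀ a ∈ A, a ^ p = 1)
    (K : Subgroup X) (hKp : ¬ p ∣ Nat.card K) (hAK : A ≤ Subgroup.normalizer (K : Set X))
    (hnc : ¬ (K ≤ Subgroup.centralizer (A : Set X))) :
    ∃ B : Subgroup X, B ≤ A ∧ B.relIndex A = p ∧ ∃ a ∈ A, ∃ x ∈ K,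
      x ∈ Subgroup.centralizer (B : Set X) ∧ a * x ≠ x * a :=
  exists_hyperplane_aux A hAc hAp (Nat.card K) K le_rfl hKp hAK hnc

end Cfsg.Agent.Lib.Helper31.HypGen
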