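import Mathlib
import Cfsg.Agent.Lib.Helper41.OFStmt

/-! S5977 piece IDXOARITH. -/

set_option autoImplicit false

namespace Cfsg.Agent.Lib.Helper31.OFIDXOARITH

open Cfsg.Agent.Lib.Helper41.OFStmt

/-- splitting the product over `j = 1..2m` of `q^(2j) - 1` into even and odd `j`. -/
theorem prod_split (q m : ℕ) :
    ∏ j ∈ Finset.range (2 * m), (q ^ (2 * (j + 1)) - 1) =
      (∏ j ∈ Finset.range m, ((q ^ 2) ^ (2 * (j + 1)) - 1)) *
        ∏ j ∈ Finset.range m, (q ^ (2 * (2 * j + 1)) - 1) := by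
  induction m with
  | zero => simp
  | succ m ih =>
    have e : 2 * (m + 1) = 2 * m + 1 + 1 := by ring
    have hL : ∏ j ∈ Finset.range (2 * (m + 1)), (q ^ (2 * (j + 1)) - 1) =
        (∏ j ∈ Finset.range (2 * m), (q ^ (2 * (j + 1)) - 1)) * (q ^ (2 * (2 * m + 1)) - 1) *
          (q ^ (2 * (2 * m + 1 + 1)) - 1) := by
      rw [e, Finset.prod_range_succ, Finset.prod_range_succ]
    have e1 : (q ^ 2) ^ (2 * (m + 1)) = q ^ (2 * (2 * m + 1 + 1)) := by
      rw [← pow_mul, show 2 * (2 * (m + 1)) = 2 * (2 * m + 1 + 1) by ring]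
    rw [hL, ih, Finset.prod_range_succ (fun j => (q ^ 2) ^ (2 * (j + 1)) - 1),
      Finset.prod_range_succ (fun j => q ^ (2 * (2 * j + 1)) - 1), e1]
    ring

/-- the quotient of the two orders, up to a power of `q`. -/
theorem key (q d r : ℕ) (hd : 1 ≤ d) (hr : r.Prime) :
    ∃ C K : ℕ, Aq q d = Bq q d * C * q ^ K ∧
      (r ∣ C → (Odd d ∧ r ∣ q ^ d - 1) ∨ ∃ k, Odd k ∧ k + 1 ≤ d ∧ r ∣ q ^ (2 * k) - 1) := by
  rcases Nat.even_or_odd' d with ⟨m, rfl | rfl⟩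
  · obtain ⟨m', rfl⟩ : ∃ m', m = m' + 1 := ⟨m - 1, by omega⟩
    refine ⟨∏ j ∈ Finset.range (m' + 1), (q ^ (2 * (2 * j + 1)) - 1), 2 * (m' + 1) ^ 2, ?_, ?_⟩
    · unfold Aq Bq
      rw [if_pos (by simp)]
      have e1 : 2 * (m' + 1) - 1 = 2 * m' + 1 := by omega
      have e2 : 2 * (m' + 1) / 2 = m' + 1 := by omega
      have e3 : m' + 1 - 1 = m' := by omega
      rw [e1, e2, e3, Finset.prod_range_succ (fun j => q ^ (2 * (j + 1)) - 1) (2 * m'),
        prod_split, Finset.prod_range_succ (fun j => q ^ (2 * (2 * j + 1)) - 1) m']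
      have hp1 : (q ^ 2) ^ (m' + 1) = q ^ (2 * (m' + 1)) := by rw [← pow_mul]
      have hp2 : q ^ (2 * (m' + 1) * (2 * m' + 1)) =
          (q ^ 2) ^ ((m' + 1) * m') * q ^ (2 * (m' + 1) ^ 2) := by
        rw [← pow_mul, ← pow_add]; congr 1; ring
      rw [hp1, hp2]
      ring
    · intro hC
      right
      obtain ⟨j, hj, hdj⟩ := (Prime.dvd_finsetProd_iff hr.prime _).mp hC
      exact ⟨2 * j + 1, ⟨j, rfl⟩, by have := Finset.mem_range.mp hj; omega, hdj⟩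
  · refine ⟨(q ^ (2 * m + 1) - 1) * ∏ j ∈ Finset.range m, (q ^ (2 * (2 * j + 1)) - 1),
      2 * m ^ 2 + 2 * m, ?_, ?_⟩
    · unfold Aq Bq
      rw [if_neg (by simp)]
      have e1 : 2 * m + 1 - 1 = 2 * m := by omega
      have e2 : (2 * m + 1 - 1) / 2 = m := by omega
      rw [e2, e1, prod_split]
      have hp2 : q ^ ((2 * m + 1) * (2 * m)) = (q ^ 2) ^ (m ^ 2) * q ^ (2 * m ^ 2 + 2 * m) := by
        rw [← pow_mul, ← pow_add]; congr 1; ring
      rw [hp2]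
      ring
    · intro hC
      rcases (Nat.Prime.dvd_mul hr).mp hC with h | h
      · left
        exact ⟨⟨m, rfl⟩, h⟩
      · right
        obtain ⟨j, hj, hdj⟩ := (Prime.dvd_finsetProd_iff hr.prime _).mp h
        exact ⟨2 * j + 1, ⟨j, rfl⟩, by have := Finset.mem_range.mp hj; omega, hdj⟩

theorem Aq_pos (q d : ℕ) (hq : 2 ≤ q) (hd : 1 ≤ d) : 0 < Aq q d := by
  unfold Aq
  have h1 : ∀ n : ℕ, 1 ≤ n → 0 < q ^ n - 1 := by
    intro n hn
    have : 2 ^ 1 ≤ q ^ n := (Nat.pow_le_pow_left hq 1).trans (Nat.pow_le_pow_right (by omega) hn)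
    omega
  have h2 : 0 < ∏ j ∈ Finset.range (d - 1), (q ^ (2 * (j + 1)) - 1) :=
    Finset.prod_pos (fun j _ => h1 _ (by omega))
  have h3 : 0 < q ^ (d * (d - 1)) := by positivity
  have h4 := h1 d hd
  positivity

theorem pow_eq_one_of_dvd (q r n : ℕ) (hq : 2 ≤ q) (h : r ∣ q ^ n - 1) :
    ((q : ℕ) : ZMod r) ^ n = 1 := by
  have h1 : ((q ^ n - 1 : ℕ) : ZMod r) = 0 := (ZMod.natCast_eq_zero_iff _ _).mpr h
  rw [Nat.cast_sub (Nat.one_le_pow _ _ (by omega)), Nat.cast_pow, Nat.cast_one, sub_eq_zero] at h1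
  exact h1

theorem main : IdxOArith := by
  intro q d r i hq hd hr hr2 hrq hi N Ωc hvN hNΩ hΩA hrΩ
  have : Fact r.Prime := ⟨hr⟩
  obtain ⟨C, K, hAB, hCcase⟩ := key q d r hd hr
  have hApos := Aq_pos q d hq hd
  have hA0 : Bq q d * C * q ^ K ≠ 0 := by rw [← hAB]; exact hApos.ne'
  have hB0 : Bq q d ≠ 0 := fun h => hA0 (by rw [h, zero_mul, zero_mul])
  have hC0 : C ≠ 0 := fun h => hA0 (by rw [h, mul_zero, zero_mul])
  have hK0 : q ^ K ≠ 0 := fun h => hA0 (by rw [h, mul_zero])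
  have hdvd : r ^ (padicValNat r (Bq q d) + 1) ∣ Aq q d := by
    have h1 : r ^ padicValNat r (Bq q d) * r ∣ N * (Ωc / N) := mul_dvd_mul hvN hrΩ
    rw [Nat.mul_div_cancel' hNΩ] at h1
    rw [pow_succ]
    exact h1.trans hΩA
  have hle := (padicValNat_dvd_iff_le hApos.ne').mp hdvd
  rw [hAB, padicValNat.mul (Nat.mul_ne_zero hB0 hC0) hK0, padicValNat.mul hB0 hC0,
    padicValNat.pow q K, padicValNat.eq_zero_of_not_dvd hrq, mul_zero,
    add_zero] at hle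
  have hrC : r ∣ C := dvd_of_one_le_padicValNat (by omega)
  rcases hCcase hrC with ⟨hdodd, hdd⟩ | ⟨k, hkodd, hkd, hdk⟩
  · have hpow := pow_eq_one_of_dvd q r d hq hdd
    have hid : i ∣ d := by rw [hi]; exact orderOf_dvd_of_pow_eq_one hpow
    have h2 : (((q : ℕ) : ZMod r) ^ 2) ^ d = 1 := by
      rw [← pow_mul, mul_comm, pow_mul, hpow, one_pow]
    refine ⟨Odd.of_dvd_nat hdodd (orderOf_dvd_of_pow_eq_one h2), Or.inl ⟨?_, ?_⟩⟩
    · exact Odd.of_dvd_nat hdodd hid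
    · exact Nat.le_of_dvd (by omega) hid
  · have hpow := pow_eq_one_of_dvd q r (2 * k) hq hdk
    have hid : i ∣ 2 * k := by rw [hi]; exact orderOf_dvd_of_pow_eq_one hpow
    have h2 : (((q : ℕ) : ZMod r) ^ 2) ^ k = 1 := by
      rw [← pow_mul]; exact hpow
    have hkpos : 0 < k := by
      rcases hkodd with ⟨t, ht⟩; omega
    refine ⟨Odd.of_dvd_nat hkodd (orderOf_dvd_of_pow_eq_one h2), ?_⟩
    by_cases hio : Odd i
    · left
      refine ⟨hio, ?_⟩
      have hcop : Nat.Coprime i 2 := Nat.coprime_two_right.mpr hio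
      have hik : i ∣ k := hcop.dvd_of_dvd_mul_left hid
      have := Nat.le_of_dvd hkpos hik
      omega
    · right
      refine ⟨Nat.not_odd_iff_even.mp hio, ?_⟩
      have := Nat.le_of_dvd (by omega) hid
      omega

end Cfsg.Agent.Lib.Helper31.OFIDXOARITH
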