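import Mathlib
import Cfsg.Agent.Lib.Helper41.OFStmt

/-! S5977 piece LDISC0: discriminant transfer for an `L`-frame. -/

set_option autoImplicit false

namespace Cfsg.Agent.Lib.Helper31.OFLDISC0

open Matrix Module
open Cfsg.Agent.Lib.Helper41.OFStmt
open Cfsg.Agent.Lib.Helper41.SpFStmt (Mat)

universe u

/-- `Coord` as an `F`-linear map. -/
def coordLin {F : Type u} [Field F] {L : Type u} [Field L] [Algebra F L] {d : ℕ}
    (φ : L →ₐ[F] Mat d F) {m' : ℕ} (b : Fin m' → (Fin d ⊕ Fin d → F)) :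
    (Fin m' → L) →ₗ[F] (Fin d ⊕ Fin d → F) where
  toFun := Coord φ b
  map_add' := by
    intro c c'
    unfold Coord
    rw [← Finset.sum_add_distrib]
    refine Finset.sum_congr rfl (fun j _ => ?_)
    rw [Pi.add_apply, map_add, Matrix.add_mulVec]
  map_smul' := by
    intro a c
    unfold Coord
    rw [RingHom.id_apply, Finset.smul_sum]
    refine Finset.sum_congr rfl (fun j _ => ?_)
    rw [Pi.smul_apply, map_smul, Matrix.smul_mulVec]

theorem coordLin_apply {F : Type u} [Field F] {L : Type u} [Field L] [Algebra F L] {d : ℕ}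
    (φ : L →ₐ[F] Mat d F) {m' : ℕ} (b : Fin m' → (Fin d ⊕ Fin d → F)) (c : Fin m' → L) :
    coordLin φ b c = Coord φ b c := rfl

theorem main : LDisc0.{u} := by
  intro F _ _ _ L _ _ _ τ hτ
  classical
  obtain ⟨ω, -⟩ : ∃ ω : Basis (Fin (Module.finrank F L)) F L, True := ⟨Module.finBasis F L, trivial⟩
  obtain ⟨T₀, hT₀⟩ : ∃ T₀ : Matrix (Fin (Module.finrank F L)) (Fin (Module.finrank F L)) F,
      ∀ a a', T₀ a a' = τ (ω a * ω a') := ⟨Matrix.of (fun a a' => τ (ω a * ω a')), fun _ _ => rfl⟩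
  -- `τ (ω a * z)` in coordinates
  have tau_basis : ∀ (a : Fin (Module.finrank F L)) (z : L),
      τ (ω a * z) = ∑ a'', T₀ a a'' * ω.repr z a'' := by
    intro a z
    conv_lhs => rw [← ω.sum_repr z]
    rw [Finset.mul_sum, map_sum]
    refine Finset.sum_congr rfl (fun a'' _ => ?_)
    rw [mul_smul_comm, map_smul, smul_eq_mul, mul_comm, hT₀]
  have ht : T₀.det ≠ 0 := by
    intro h
    obtain ⟨v, hv, hv0⟩ := Matrix.exists_mulVec_eq_zero_iff.mpr h
    have hy0 : (∑ a', v a' • ω a') ≠ 0 := by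
      intro h0
      apply hv
      funext a
      have h1 : (ω.repr (∑ a', v a' • ω a')) a = (ω.repr 0) a := by rw [h0]
      rw [ω.repr_sum_self] at h1
      simpa using h1
    have hτωy : ∀ a, τ (ω a * ∑ a', v a' • ω a') = 0 := by
      intro a
      rw [tau_basis, ω.repr_sum_self]
      have h1 := congrFun hv0 a
      simpa [Matrix.mulVec, dotProduct] using h1
    have hτxy : ∀ x : L, τ (x * ∑ a', v a' • ω a') = 0 := by
      intro x
      conv_lhs => rw [← ω.sum_repr x]
      rw [Finset.sum_mul, map_sum]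
      refine Finset.sum_eq_zero (fun a _ => ?_)
      rw [smul_mul_assoc, map_smul, hτωy a, smul_zero]
    apply hτ
    apply LinearMap.ext
    intro z
    have h1 := hτxy (z * (∑ a', v a' • ω a')⁻¹)
    rw [mul_assoc, inv_mul_cancel₀ hy0, mul_one] at h1
    rw [h1]
    rfl
  refine ⟨T₀.det, ht, ?_⟩
  intro d m' φ b G hframe
  obtain ⟨hGsym, hGdet, hbij, hform⟩ := hframe
  obtain ⟨𝔟, h𝔟⟩ : ∃ 𝔟 : Basis (Fin (Module.finrank F L) × Fin m') F (Fin m' → L),
      𝔟 = ω.smulTower (Pi.basisFun L (Fin m')) := ⟨_, rfl⟩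
  have dot_basis : ∀ (a : Fin (Module.finrank F L)) (j : Fin m') (w : Fin m' → L),
      𝔟 (a, j) ⬝ᵥ w = ω a * w j := by
    intro a j w
    rw [h𝔟, Basis.smulTower_apply, Pi.basisFun_apply]
    show ∑ k, (ω a • (Pi.single j (1 : L) : Fin m' → L)) k * w k = ω a * w j
    rw [Finset.sum_eq_single j]
    · simp
    · intro k _ hk
      simp [hk]
    · intro h
      exact absurd (Finset.mem_univ j) h
  have repr_basis : ∀ (w : Fin m' → L) (a : Fin (Module.finrank F L)) (j : Fin m'),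
      𝔟.repr w (a, j) = ω.repr (w j) a := by
    intro w a j
    rw [h𝔟, Basis.smulTower_repr]
    simp
  -- the Gram matrix of the `F`-form in the basis `𝔟`
  obtain ⟨M, hM⟩ : ∃ M : Matrix (Fin (Module.finrank F L) × Fin m')
      (Fin (Module.finrank F L) × Fin m') F, ∀ i i', M i i' = τ (𝔟 i ⬝ᵥ (G *ᵥ 𝔟 i')) :=
    ⟨Matrix.of (fun i i' => τ (𝔟 i ⬝ᵥ (G *ᵥ 𝔟 i'))), fun _ _ => rfl⟩
  obtain ⟨GF, hGF⟩ : ∃ GF : Matrix (Fin (Module.finrank F L) × Fin m')
      (Fin (Module.finrank F L) × Fin m') F,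
      GF = LinearMap.toMatrix 𝔟 𝔟 ((Matrix.toLin' G).restrictScalars F) := ⟨_, rfl⟩
  have hGFdet : GF.det = Algebra.norm F G.det := by
    rw [hGF, LinearMap.det_toMatrix, LinearMap.det_restrictScalars, LinearMap.det_toLin']
  have hM2 : M = (Matrix.kroneckerMap (fun x1 x2 => x1 * x2) T₀
      (1 : Matrix (Fin m') (Fin m') F)) * GF := by
    ext ⟨a, j⟩ ⟨a', j'⟩
    rw [hM, dot_basis, tau_basis, Matrix.mul_apply, Fintype.sum_prod_type]
    refine Finset.sum_congr rfl (fun a'' _ => ?_)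
    rw [Finset.sum_eq_single j]
    · rw [Matrix.kroneckerMap_apply, Matrix.one_apply_eq, mul_one, hGF, LinearMap.toMatrix_apply,
        repr_basis]
      rfl
    · intro j'' _ hj
      rw [Matrix.kroneckerMap_apply, Matrix.one_apply_ne hj.symm, mul_zero, zero_mul]
    · intro h
      exact absurd (Finset.mem_univ j) h
  have hMdet : M.det = T₀.det ^ m' * Algebra.norm F G.det := by
    rw [hM2, Matrix.det_mul, Matrix.det_kronecker, Matrix.det_one, one_pow, mul_one,
      Fintype.card_fin, hGFdet]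
  -- the other expression of `M`
  obtain ⟨E, hE⟩ : ∃ E : (Fin m' → L) ≃ₗ[F] (Fin d ⊕ Fin d → F), ∀ c, E c = Coord φ b c :=
    ⟨LinearEquiv.ofBijective (coordLin φ b) hbij, fun _ => rfl⟩
  obtain ⟨e, -⟩ : ∃ e : (Fin (Module.finrank F L) × Fin m') ≃ (Fin d ⊕ Fin d), True :=
    ⟨(𝔟.map E).indexEquiv (Pi.basisFun F (Fin d ⊕ Fin d)), trivial⟩
  obtain ⟨A, hA⟩ : ∃ A : Matrix (Fin d ⊕ Fin d) (Fin d ⊕ Fin d) F,
      ∀ k x, A k x = Coord φ b (𝔟 (e.symm k)) x :=
    ⟨Matrix.of (fun k x => Coord φ b (𝔟 (e.symm k)) x), fun _ _ => rfl⟩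
  have hM1 : M.submatrix e.symm e.symm = A * S0 d F * Aᵀ := by
    ext k k'
    rw [Matrix.submatrix_apply, hM, ← hform, Matrix.mul_apply]
    simp only [Matrix.mul_apply, Matrix.transpose_apply, dotProduct, Matrix.mulVec, hA]
    simp only [Finset.sum_mul, Finset.mul_sum]
    rw [Finset.sum_comm]
    refine Finset.sum_congr rfl (fun x _ => Finset.sum_congr rfl (fun y _ => ?_))
    ring
  have hAdet : A.det ≠ 0 := by
    have hrow : A.row = fun k => ((𝔟.map E).reindex e) k := by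
      funext k
      rw [Basis.reindex_apply, Basis.map_apply, hE]
      funext x
      exact hA k x
    have hli : LinearIndependent F A.row := by
      rw [hrow]
      exact ((𝔟.map E).reindex e).linearIndependent
    exact ((Matrix.isUnit_iff_isUnit_det A).mp
      (Matrix.linearIndependent_rows_iff_isUnit.mp hli)).ne_zero
  refine ⟨A.det, hAdet, ?_⟩
  have h1 : (M.submatrix e.symm e.symm).det = M.det := Matrix.det_submatrix_equiv_self e.symm M
  rw [hM1, Matrix.det_mul, Matrix.det_mul, Matrix.det_transpose, hMdet] at h1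
  rw [mul_comm (Algebra.norm F G.det), ← h1]
  ring

end Cfsg.Agent.Lib.Helper31.OFLDISC0
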