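import Mathlib
import Cfsg.Agent.Lib.Helper41.OFStmt

/-! S5977 piece NORMSQ: over finite fields of odd characteristic an element whose norm is a
square is a square. -/

set_option autoImplicit false

namespace Cfsg.Agent.Lib.Helper31.OFNORMSQ

universe u

theorem main : Cfsg.Agent.Lib.Helper41.OFStmt.NormSq.{u} := by
  intro F _ _ h2 L _ _ _ x hx hsq
  have hF : ringChar F ≠ 2 := by
    intro h
    apply h2
    have h1 := CharP.cast_eq_zero F (ringChar F)
    rw [h] at h1
    exact_mod_cast h1
  have h2L : (2 : L) ≠ 0 := by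
    intro h
    apply h2
    apply (algebraMap F L).injective
    rw [map_ofNat, map_zero]
    exact h
  have hL : ringChar L ≠ 2 := by
    intro h
    apply h2L
    have h1 := CharP.cast_eq_zero L (ringChar L)
    rw [h] at h1
    exact_mod_cast h1
  have hnorm := FiniteField.algebraMap_norm_eq_pow (K := F) (K' := L) (x := x)
  have hN0 : Algebra.norm F x ≠ 0 := by
    intro h
    rw [h, map_zero] at hnorm
    exact pow_ne_zero _ hx hnorm.symm
  have h1 := (FiniteField.isSquare_iff hF hN0).mp hsq
  have h3 : x ^ ((Nat.card L - 1) / (Nat.card F - 1) * (Fintype.card F / 2)) = 1 := by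
    rw [pow_mul, ← hnorm, ← map_pow, h1, map_one]
  have hqodd := FiniteField.odd_card_of_char_ne_two hF
  have hQodd := FiniteField.odd_card_of_char_ne_two hL
  have hQ : Fintype.card L = Fintype.card F ^ Module.finrank F L :=
    Module.card_eq_pow_finrank
  have hdvd : Fintype.card F - 1 ∣ Fintype.card L - 1 := by
    have h4 := Nat.sub_dvd_pow_sub_pow (Fintype.card F) 1 (Module.finrank F L)
    rw [one_pow, ← hQ] at h4
    exact h4
  have hexp : (Nat.card L - 1) / (Nat.card F - 1) * (Fintype.card F / 2) = Fintype.card L / 2 := by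
    rw [Nat.card_eq_fintype_card, Nat.card_eq_fintype_card]
    obtain ⟨m, hm⟩ := hdvd
    have hq1 : 1 < Fintype.card F := Fintype.one_lt_card
    obtain ⟨b, hb⟩ : ∃ b, Fintype.card F - 1 = 2 * b := ⟨(Fintype.card F - 1) / 2, by omega⟩
    have hbpos : 0 < Fintype.card F - 1 := by omega
    rw [hm, Nat.mul_div_cancel_left _ hbpos]
    have e1 : Fintype.card F / 2 = b := by omega
    have e2 : Fintype.card L = 2 * (b * m) + 1 := by
      have hQpos : 0 < Fintype.card L := Fintype.card_pos
      have : Fintype.card L - 1 = 2 * (b * m) := by rw [hm, hb]; ring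
      omega
    rw [e1, e2]
    have : (2 * (b * m) + 1) / 2 = b * m := by omega
    rw [this, mul_comm]
  rw [hexp] at h3
  exact (FiniteField.isSquare_iff hL hx).mpr h3

end Cfsg.Agent.Lib.Helper31.OFNORMSQ
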