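import Mathlib
import Cfsg.Agent.Lib.Helper41.OFStmt

/-! S5977 piece SQIDX. -/

set_option autoImplicit false

namespace Cfsg.Agent.Lib.Helper31.OFSQIDX

universe u

theorem main : Cfsg.Agent.Lib.Helper41.OFStmt.SqIdx.{u} := by
  intro G _ _ H Ω hsq r hr hr2 k hk
  have : Fact r.Prime := ⟨hr⟩
  obtain ⟨K, hK⟩ := Sylow.exists_subgroup_card_pow_prime r hk
  have hle : K.map H.subtype ≤ H ⊓ Ω := by
    rintro _ ⟨x, hx, rfl⟩
    refine ⟨x.2, ?_⟩
    have ho : orderOf x ∣ r ^ k := by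
      have h1 := orderOf_dvd_natCard (⟨x, hx⟩ : K)
      rw [hK] at h1
      have h2 : orderOf (⟨x, hx⟩ : K) = orderOf x := (Subgroup.orderOf_coe (⟨x, hx⟩ : K)).symm
      rw [h2] at h1
      exact h1
    have hodd : Odd (orderOf x) :=
      Odd.of_dvd_nat ((hr.eq_two_or_odd'.resolve_left hr2).pow) ho
    obtain ⟨t, ht⟩ := hodd
    have hx2 : x = x ^ (t + 1) * x ^ (t + 1) := by
      rw [← pow_add]
      have e : t + 1 + (t + 1) = orderOf x + 1 := by omega
      rw [e, pow_succ, pow_orderOf_eq_one, one_mul]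
    have h3 := hsq ((x ^ (t + 1) : H) : G) (x ^ (t + 1)).2
    have h4 : H.subtype x = ((x ^ (t + 1) : H) : G) * ((x ^ (t + 1) : H) : G) := by
      conv_lhs => rw [hx2]
      rfl
    rw [h4]
    exact h3
  have hcard : Nat.card (K.map H.subtype) = r ^ k := by
    rw [Subgroup.card_map_of_injective H.subtype_injective, hK]
  rw [← hcard]
  exact Subgroup.card_dvd_of_le hle

end Cfsg.Agent.Lib.Helper31.OFSQIDX
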