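import Cfsg.Agent.Lib.Helper41.OMStmt
import Cfsg.Agent.Lib.Helper44.ODet
import Cfsg.Agent.Lib.Helper44.NegPairs
import Cfsg.Agent.Lib.Helper44.FinSq

/-!
# S5978 piece MOMFIX: spinor norm correction inside the centralizer of `J` (minus type).
Adapted from `Helper8.OFOMFIX`.
-/

set_option autoImplicit false

namespace Cfsg.Agent.Lib.Helper31.OMMOMFIX

open Matrix QuadraticMap
open Cfsg.Agent.Lib.Helper41 Cfsg.Agent.Lib.Helper44
open Cfsg.Agent.Lib.Helper44.QSpace Cfsg.Agent.Lib.Helper44.OGroup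

universe u

variable {F : Type u} [Field F]

theorem finrank_ge (d : ℕ) : 2 ≤ Module.finrank F (OMStmt.Im d → F) := by
  rw [Module.finrank_fintype_fun_eq_card]
  simp only [Fintype.card_sum, Fintype.card_fin]
  omega

theorem Gm_mulVec (d : ℕ) (aa bb : F) (w : OMStmt.Im d → F) :
    OMStmt.Gm d aa bb *ᵥ w =
      Sum.elim (Sum.elim (fun i => w (Sum.inl (Sum.inr i))) (fun i => w (Sum.inl (Sum.inl i))))
        (![2 * w (Sum.inr 0) + aa * w (Sum.inr 1), aa * w (Sum.inr 0) + 2 * bb * w (Sum.inr 1)]) := by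
  funext c
  unfold OMStmt.Gm
  rw [Matrix.fromBlocks_mulVec]
  rcases c with (i | i) | i
  · simp [Matrix.fromBlocks_mulVec]
  · simp [Matrix.fromBlocks_mulVec]
  · fin_cases i <;> simp [dotProduct, Fin.sum_univ_two]

theorem dot_Gm (d : ℕ) (aa bb : F) (u w : OMStmt.Im d → F) :
    u ⬝ᵥ (OMStmt.Gm d aa bb *ᵥ w)
      = ∑ i : Fin (d - 1), (u (Sum.inl (Sum.inl i)) * w (Sum.inl (Sum.inr i))
          + u (Sum.inl (Sum.inr i)) * w (Sum.inl (Sum.inl i)))
        + (2 * u (Sum.inr 0) * w (Sum.inr 0)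
          + aa * (u (Sum.inr 0) * w (Sum.inr 1) + u (Sum.inr 1) * w (Sum.inr 0))
          + 2 * bb * u (Sum.inr 1) * w (Sum.inr 1)) := by
  rw [Gm_mulVec]
  simp only [dotProduct, Fintype.sum_sum_type, Fin.sum_univ_two, Finset.sum_add_distrib,
    Sum.elim_inl, Sum.elim_inr, Matrix.cons_val_zero, Matrix.cons_val_one]
  ring

/-- The polar form of `quadFormMinus` has Gram matrix `Gm`. -/
theorem polar_eq (d : ℕ) (aa bb : F) (u w : OMStmt.Im d → F) :
    polar (NegPairs.minusQ (d - 1) F aa bb) u w = u ⬝ᵥ (OMStmt.Gm d aa bb *ᵥ w) := by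
  rw [dot_Gm]
  show Cfsg.quadFormMinus (d - 1) F aa bb (u + w) - Cfsg.quadFormMinus (d - 1) F aa bb u
    - Cfsg.quadFormMinus (d - 1) F aa bb w = _
  unfold Cfsg.quadFormMinus
  simp only [Pi.add_apply]
  have e : ∑ i : Fin (d - 1), (u (Sum.inl (Sum.inl i)) + w (Sum.inl (Sum.inl i)))
        * (u (Sum.inl (Sum.inr i)) + w (Sum.inl (Sum.inr i)))
      = ∑ i : Fin (d - 1), u (Sum.inl (Sum.inl i)) * u (Sum.inl (Sum.inr i))
        + ∑ i : Fin (d - 1), w (Sum.inl (Sum.inl i)) * w (Sum.inl (Sum.inr i))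
        + ∑ i : Fin (d - 1), (u (Sum.inl (Sum.inl i)) * w (Sum.inl (Sum.inr i))
          + u (Sum.inl (Sum.inr i)) * w (Sum.inl (Sum.inl i))) := by
    rw [← Finset.sum_add_distrib, ← Finset.sum_add_distrib]
    apply Finset.sum_congr rfl
    intro i _
    ring
  rw [e]
  ring

theorem adj_of (d : ℕ) (aa bb : F) (J : Matrix (OMStmt.Im d) (OMStmt.Im d) F)
    (hJS : OMStmt.Gm d aa bb * J = Jᵀ * OMStmt.Gm d aa bb) (x y : OMStmt.Im d → F) :
    polar (NegPairs.minusQ (d - 1) F aa bb) (J *ᵥ x) y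
      = polar (NegPairs.minusQ (d - 1) F aa bb) x (J *ᵥ y) := by
  rw [polar_eq, polar_eq, Matrix.mulVec_mulVec, hJS, ← Matrix.mulVec_mulVec,
    ← Matrix.vecMul_transpose, ← Matrix.dotProduct_mulVec]

theorem main : OMStmt.MOmFix.{u} := by
  intro F _ _ h2 d hd aa bb hab l hl J hJJ hJS v hv hvJ g₀ hg₀ hdet
  classical
  have hS := NegPairs.sep_minusQ (F := F) h2 (d - 1) aa bb hab
  have hCD : Omega2.CDP (NegPairs.minusQ (d - 1) F aa bb) := Omega2.cdp_of_two_ne_zero h2 hS
  have hfin := finrank_ge (F := F) d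
  let g' : ↥(Cfsg.isometryGroup F ⇑(NegPairs.minusQ (d - 1) F aa bb)) := ⟨g₀, hg₀⟩
  obtain ⟨vs, hvs, hgv⟩ := OMat2.exists_prod_of_cdp hCD g'
  have hdet' := ODet.det_of_prod (NegPairs.minusQ (d - 1) F aa bb) g' vs hvs hgv
  have heven : Even vs.length := by
    by_contra hodd
    rw [Nat.not_even_iff_odd] at hodd
    rw [hodd.neg_one_pow] at hdet'
    have h1 := congrArg Units.val hdet'
    rw [Matrix.GeneralLinearGroup.val_det_apply] at h1
    have h3 : (g₀ : Matrix (OMStmt.Im d) (OMStmt.Im d) F).det = ((-1 : Fˣ) : F) := h1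
    rw [hdet] at h3
    have h4 : (1 : F) = -1 := by simpa using h3
    apply h2
    linear_combination h4
  by_cases hsq : IsSquare (vs.map (fun v => NegPairs.minusQ (d - 1) F aa bb v)).prod
  · refine ⟨1, Subgroup.one_mem _, by simp, ?_⟩
    rw [mul_one]
    have hmem : g' ∈ Cfsg.Omega F ⇑(NegPairs.minusQ (d - 1) F aa bb) := by
      rw [OMat.mem_omega_iff, hgv, Spinor.mem_commutator_iff h2 hS hfin vs hvs]
      exact ⟨heven, hsq⟩
    exact ⟨g', hmem, rfl⟩
  · have hadj := adj_of d aa bb J hJS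
    have hJJv : ∀ a : OMStmt.Im d → F, J *ᵥ (J *ᵥ a) = l • a := by
      intro a
      rw [Matrix.mulVec_mulVec, hJJ, Matrix.smul_mulVec, Matrix.one_mulVec]
    have hQ2 : ∀ a : OMStmt.Im d → F,
        polar (NegPairs.minusQ (d - 1) F aa bb) a a = 2 * NegPairs.minusQ (d - 1) F aa bb a := by
      intro a
      rw [QuadraticMap.polar_self]
      simp
    have hQv : NegPairs.minusQ (d - 1) F aa bb v ≠ 0 := by
      intro h
      apply hv
      rw [← polar_eq, hQ2, h, mul_zero]
    have hQw : NegPairs.minusQ (d - 1) F aa bb (J *ᵥ v) = l * NegPairs.minusQ (d - 1) F aa bb v := by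
      have h1 : 2 * NegPairs.minusQ (d - 1) F aa bb (J *ᵥ v) = 2 * (l * NegPairs.minusQ (d - 1) F aa bb v) := by
        rw [← hQ2, hadj, hJJv, QuadraticMap.polar_smul_right, hQ2]
        simp only [smul_eq_mul]
        ring
      exact mul_left_cancel₀ h2 h1
    have hl0 : l ≠ 0 := fun h => hl (h ▸ IsSquare.zero)
    have hQw0 : NegPairs.minusQ (d - 1) F aa bb (J *ᵥ v) ≠ 0 := by rw [hQw]; exact mul_ne_zero hl0 hQv
    have hvw : polar (NegPairs.minusQ (d - 1) F aa bb) v (J *ᵥ v) = 0 := by rw [polar_eq]; exact hvJ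
    have hwv : polar (NegPairs.minusQ (d - 1) F aa bb) (J *ᵥ v) v = 0 := by rw [polar_comm]; exact hvw
    let n' : ↥(O (NegPairs.minusQ (d - 1) F aa bb)) :=
      refl (NegPairs.minusQ (d - 1) F aa bb) v * refl (NegPairs.minusQ (d - 1) F aa bb) (J *ᵥ v)
    let n : ↥(Cfsg.isometryGroup F ⇑(NegPairs.minusQ (d - 1) F aa bb)) :=
      (OMat.isoEquiv (NegPairs.minusQ (d - 1) F aa bb)).symm n'
    have hnx : ∀ x : OMStmt.Im d → F, ((n : GL (OMStmt.Im d) F) : Matrix _ _ F) *ᵥ x
        = x - ((NegPairs.minusQ (d - 1) F aa bb v)⁻¹ * polar (NegPairs.minusQ (d - 1) F aa bb) x v) • v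
          - ((l * NegPairs.minusQ (d - 1) F aa bb v)⁻¹ * polar (NegPairs.minusQ (d - 1) F aa bb) x (J *ᵥ v)) • (J *ᵥ v) := by
      intro x
      rw [OMat.isoEquiv_symm_mulVec]
      show reflE (NegPairs.minusQ (d - 1) F aa bb) v (reflE (NegPairs.minusQ (d - 1) F aa bb) (J *ᵥ v) x) = _
      rw [reflE_apply, reflE_apply, QuadraticMap.polar_sub_left, QuadraticMap.polar_smul_left,
        hQw, hwv]
      simp only [smul_eq_mul, mul_zero, sub_zero]
      abel
    refine ⟨n.1, n.2, ?_, ?_⟩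
    · apply OMat.matrix_ext_mulVec
      intro x
      rw [← Matrix.mulVec_mulVec, ← Matrix.mulVec_mulVec, hnx, hnx]
      rw [Matrix.mulVec_sub, Matrix.mulVec_sub, Matrix.mulVec_smul, Matrix.mulVec_smul, hJJv]
      have e1 : polar (NegPairs.minusQ (d - 1) F aa bb) (J *ᵥ x) v
          = polar (NegPairs.minusQ (d - 1) F aa bb) x (J *ᵥ v) := hadj x v
      have e2 : polar (NegPairs.minusQ (d - 1) F aa bb) (J *ᵥ x) (J *ᵥ v)
          = l * polar (NegPairs.minusQ (d - 1) F aa bb) x v := by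
        rw [hadj, hJJv, QuadraticMap.polar_smul_right, smul_eq_mul]
      rw [e1, e2, smul_smul]
      have e3 : (l * NegPairs.minusQ (d - 1) F aa bb v)⁻¹ * (l * polar (NegPairs.minusQ (d - 1) F aa bb) x v)
          = (NegPairs.minusQ (d - 1) F aa bb v)⁻¹ * polar (NegPairs.minusQ (d - 1) F aa bb) x v := by
        field_simp
      have e4 : (l * NegPairs.minusQ (d - 1) F aa bb v)⁻¹ * polar (NegPairs.minusQ (d - 1) F aa bb) x (J *ᵥ v) * l
          = (NegPairs.minusQ (d - 1) F aa bb v)⁻¹ * polar (NegPairs.minusQ (d - 1) F aa bb) x (J *ᵥ v) := by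
        field_simp
      rw [e3, e4]
      abel
    · have hmem : g' * n ∈ Cfsg.Omega F ⇑(NegPairs.minusQ (d - 1) F aa bb) := by
        rw [OMat.mem_omega_iff, map_mul, hgv, MulEquiv.apply_symm_apply]
        have hprod : (vs.map (refl (NegPairs.minusQ (d - 1) F aa bb))).prod * n'
            = ((vs ++ [v, J *ᵥ v]).map (refl (NegPairs.minusQ (d - 1) F aa bb))).prod := by
          rw [List.map_append, List.prod_append]
          simp [n']
        have hall : ∀ u ∈ vs ++ [v, J *ᵥ v], NegPairs.minusQ (d - 1) F aa bb u ≠ 0 := by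
          intro u hu
          rcases List.mem_append.mp hu with h | h
          · exact hvs u h
          · simp only [List.mem_cons, List.not_mem_nil, or_false] at h
            rcases h with rfl | rfl
            · exact hQv
            · exact hQw0
        rw [hprod, Spinor.mem_commutator_iff h2 hS hfin (vs ++ [v, J *ᵥ v]) hall]
        refine ⟨?_, ?_⟩
        · rw [List.length_append]
          exact heven.add ⟨1, rfl⟩
        · rw [List.map_append, List.prod_append]
          simp only [List.map_cons, List.map_nil, List.prod_cons, List.prod_nil, mul_one]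
          apply FinSq.isSquare_mul_of_not_of_not hsq
          rw [hQw]
          rintro ⟨r, hr⟩
          apply hl
          refine ⟨r / NegPairs.minusQ (d - 1) F aa bb v, ?_⟩
          field_simp
          linear_combination hr
      exact ⟨g' * n, hmem, rfl⟩

end Cfsg.Agent.Lib.Helper31.OMMOMFIX
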