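import Mathlib
import Cfsg.Agent.Lib.Helper37.OrtStmt

set_option autoImplicit false

/-! S5981 piece LTE (helper37 call): the `r`-part of `|SL_n(q)|` for `i = orderOf (q mod r) ≥ 2`,
`r` odd: `v_r |SL_n(q)| ≤ v_r |GL_n(q)| = Σ_{m ≤ n} v_r (q^m - 1) = a (n / i) + v_r ((n / i)!)`. -/

namespace Cfsg.Agent.Lib.Helper31.OrtLTE

open Cfsg.Agent.Lib.Helper37

universe u

theorem val_prod (r : ℕ) [Fact r.Prime] {ι : Type*} (s : Finset ι) (g : ι → ℕ)
    (h : ∀ x ∈ s, g x ≠ 0) :
    padicValNat r (∏ x ∈ s, g x) = ∑ x ∈ s, padicValNat r (g x) := by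
  classical
  induction s using Finset.induction_on with
  | empty => simp
  | insert a s ha ih =>
    rw [Finset.prod_insert ha, Finset.sum_insert ha,
      padicValNat.mul (h a (Finset.mem_insert_self a s))
        (Finset.prod_ne_zero_iff.mpr fun x hx => h x (Finset.mem_insert_of_mem hx)),
      ih fun x hx => h x (Finset.mem_insert_of_mem hx)]

/-- the sum of `v_r (q^m - 1)`, `1 ≤ m ≤ n`. -/
theorem sum_val (q r : ℕ) [Fact r.Prime] (hr2 : r ≠ 2) (hq1 : 1 < q) (hrq : ¬ r ∣ q)
    (i : ℕ) (hi : i = orderOf ((q : ℕ) : ZMod r)) (hi1 : 1 ≤ i) (n : ℕ) :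
    ∑ m ∈ Finset.range n, padicValNat r (q ^ (m + 1) - 1) =
      padicValNat r (q ^ i - 1) * (n / i) + padicValNat r (n / i).factorial := by
  have hodd : Odd r := (Fact.out : r.Prime).odd_of_ne_two hr2
  have key : ∀ m : ℕ, r ∣ q ^ m - 1 ↔ i ∣ m := by
    intro m
    have h1 : 1 ≤ q ^ m := Nat.one_le_pow _ _ (by omega)
    rw [hi, orderOf_dvd_iff_pow_eq_one, ← ZMod.natCast_eq_zero_iff (q ^ m - 1) r,
      Nat.cast_sub h1, Nat.cast_pow, Nat.cast_one, sub_eq_zero]
  induction n with
  | zero => simp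
  | succ n ih =>
    rw [Finset.sum_range_succ, ih, Nat.succ_div]
    by_cases hd : i ∣ n + 1
    · rw [if_pos hd]
      obtain ⟨j, hj⟩ := hd
      have hj0 : j ≠ 0 := by rintro rfl; omega
      have hji' : n / i + 1 = j := by
        have h3 := Nat.succ_div (a := n) (b := i)
        rw [if_pos ⟨j, hj⟩] at h3
        have h4 : (n + 1) / i = j := by rw [hj]; exact Nat.mul_div_cancel_left j (by omega)
        omega
      have hv : padicValNat r (q ^ (n + 1) - 1) =
          padicValNat r (q ^ i - 1) + padicValNat r (n / i + 1) := by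
        have h2 := padicValNat.pow_sub_pow hodd (x := q ^ i) (y := 1)
          (Nat.one_lt_pow (by omega) hq1) ((key i).mpr dvd_rfl)
          (fun h => hrq ((Fact.out : r.Prime).dvd_of_dvd_pow h)) hj0
        rw [one_pow, ← pow_mul, ← hj] at h2
        rw [hji']
        exact h2
      rw [hv, Nat.factorial_succ,
        padicValNat.mul (Nat.succ_ne_zero _) (Nat.factorial_ne_zero _)]
      ring
    · rw [if_neg hd, add_zero]
      have h0 : padicValNat r (q ^ (n + 1) - 1) = 0 :=
        padicValNat.eq_zero_of_not_dvd fun h => hd ((key _).mp h)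
      rw [h0, add_zero]

theorem main : OrtStmt.LTE.{u} := by
  intro F _ _ p _ _ r _ hr2 hrp hi n
  classical
  have hq1 : 1 < Fintype.card F := Fintype.one_lt_card
  have hrq : ¬ r ∣ Fintype.card F := by
    obtain ⟨f, -, hf⟩ := FiniteField.card F p
    intro h
    rw [hf] at h
    exact hrp ((Nat.prime_dvd_prime_iff_eq (Fact.out : r.Prime) (Fact.out : p.Prime)).mp
      ((Fact.out : r.Prime).dvd_of_dvd_pow h))
  have hGL : Nat.card (GL (Fin n) F) =
      ∏ k : Fin n, (Fintype.card F ^ n - Fintype.card F ^ (k : ℕ)) := Matrix.card_GL_field n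
  have hGL0 : Nat.card (GL (Fin n) F) ≠ 0 := Nat.card_pos.ne'
  have hdvd : Nat.card (Cfsg.Geo.specialLinear (Fin n) F) ∣ Nat.card (GL (Fin n) F) :=
    Subgroup.card_subgroup_dvd_card _
  have h1 : padicValNat r (Nat.card (Cfsg.Geo.specialLinear (Fin n) F)) ≤
      padicValNat r (Nat.card (GL (Fin n) F)) :=
    (padicValNat_dvd_iff_le hGL0).mp (dvd_trans pow_padicValNat_dvd hdvd)
  refine h1.trans (le_of_eq ?_)
  rw [hGL, ← sum_val (Fintype.card F) r hr2 hq1 hrq _ rfl (by omega) n]
  have hfac : ∀ k : Fin n, Fintype.card F ^ n - Fintype.card F ^ (k : ℕ) =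
      Fintype.card F ^ (k : ℕ) * (Fintype.card F ^ (n - k) - 1) := by
    intro k
    have hk := k.2
    rw [Nat.mul_sub, mul_one, ← pow_add]
    congr 2
    omega
  have hne : ∀ k : Fin n, Fintype.card F ^ n - Fintype.card F ^ (k : ℕ) ≠ 0 := by
    intro k
    have h2 := Nat.pow_lt_pow_right hq1 k.2
    omega
  have hval : ∀ k : Fin n, padicValNat r (Fintype.card F ^ n - Fintype.card F ^ (k : ℕ)) =
      padicValNat r (Fintype.card F ^ (n - 1 - (k : ℕ) + 1) - 1) := by
    intro k
    have hk := k.2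
    have h3 : Fintype.card F ^ (n - (k : ℕ)) - 1 ≠ 0 := by
      have h4 := hne k
      rw [hfac k] at h4
      exact right_ne_zero_of_mul h4
    rw [hfac k, padicValNat.mul (pow_ne_zero _ (by omega)) h3,
      padicValNat.eq_zero_of_not_dvd
        (fun h => hrq ((Fact.out : r.Prime).dvd_of_dvd_pow h)), zero_add]
    congr 3
    omega
  rw [val_prod r _ _ (fun k _ => hne k), Finset.sum_congr rfl (fun k _ => hval k),
    Fin.sum_univ_eq_sum_range (fun k => padicValNat r (Fintype.card F ^ (n - 1 - k + 1) - 1)) n]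
  exact Finset.sum_range_reflect (fun m => padicValNat r (Fintype.card F ^ (m + 1) - 1)) n

end Cfsg.Agent.Lib.Helper31.OrtLTE
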