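import Cfsg.Agent.Lib.Helper31.PSpTools

set_option autoImplicit false

namespace Cfsg.Agent.Lib.Helper31.PSpCP

open Cfsg.Agent.Lib.Helper98 Cfsg.Agent.Lib.Helper98.PSpStmt Cfsg.Agent.Lib.Helper31.PSpTools

universe u

theorem main (hTI : PSpStmt.TI.{u}) (hCentP : PSpStmt.CentP.{u}) (hExpP : PSpStmt.ExpP.{u}) :
    PSpStmt.CP.{u} := by
  intro G _ p q m₁ m₂ h P x c hx hx1 hcx
  have := h.fin
  have : Fact p.Prime := ⟨h.pp⟩
  have hxp : x ^ p = 1 := hExpP G p q m₁ m₂ h P P.2 x hx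
  have hox : orderOf x = p := orderOf_eq_prime hxp hx1
  have hcp : c ^ p = 1 := hCentP G p q m₁ m₂ h x c hox hcx
  have hsm : c • P = P := by
    by_contra hne
    have hbot := hTI G p q m₁ m₂ h (c • P) P hne
    have hxmem : x ∈ ((c • P : Sylow p G) : Subgroup G) ⊓ (P : Subgroup G) :=
      ⟨mem_smul_of_commute P x c hx hcx, hx⟩
    rw [hbot, Subgroup.mem_bot] at hxmem
    exact hx1 hxmem
  have hcN : c ∈ Subgroup.normalizer ((P : Subgroup G) : Set G) :=
    Sylow.smul_eq_iff_mem_normalizer.mp hsm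
  exact pelt_mem P c hcN (isPGroup_zpowers_of_pow c hcp)

end Cfsg.Agent.Lib.Helper31.PSpCP
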