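import Cfsg.Agent.Lib.Helper31.PSpTools

set_option autoImplicit false

namespace Cfsg.Agent.Lib.Helper31.PSpNP

open Cfsg.Agent.Lib.Helper98 Cfsg.Agent.Lib.Helper98.PSpStmt Cfsg.Agent.Lib.Helper31.PSpTools

universe u

theorem arith (q n h' k m₁ m₂ : ℕ) (hq : 5 ≤ q) (hk : q - 1 = h' * k)
    (hmul : n * (q * h') = 2 * q * m₁ * m₂) (h4 : 4 * m₁ * m₂ + 1 = q ^ 2) (hmod : n % q = 1) :
    n = q + 1 ∧ h' * 2 = q - 1 := by
  have hq' : q = h' * k + 1 := by omega
  have hh' : 0 < h' := by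
    rcases Nat.eq_zero_or_pos h' with h | h
    · rw [h, zero_mul] at hk; omega
    · exact h
  have e1 : n * h' = 2 * m₁ * m₂ := by
    apply Nat.eq_of_mul_eq_mul_left (show 0 < q by omega)
    calc q * (n * h') = n * (q * h') := by ring
      _ = 2 * q * m₁ * m₂ := hmul
      _ = q * (2 * m₁ * m₂) := by ring
  have e3 : 2 * (n * h') + 1 = q ^ 2 := by rw [e1, ← h4]; ring
  have e2 : 2 * n = k * (q + 1) := by
    apply Nat.eq_of_mul_eq_mul_left hh'
    have e4 : 2 * (n * h') + 1 = (h' * k + 1) ^ 2 := by rw [e3, ← hq']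
    have e5 : h' * (k * (q + 1)) = h' * (k * (h' * k + 1 + 1)) := by rw [← hq']
    rw [e5]
    nlinarith [e4]
  have hkle : k ≤ q - 1 := by rw [hk]; exact Nat.le_mul_of_pos_left k hh'
  have hn : q * (n / q) + 1 = n := by
    have := Nat.div_add_mod n q
    rw [hmod] at this
    exact this
  have h6 : (k * (q + 1)) % q = k := by
    have : k * (q + 1) = k + k * q := by ring
    rw [this, Nat.add_mul_mod_self_right, Nat.mod_eq_of_lt (by omega)]
  have h7 : (2 * n) % q = 2 := by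
    rw [← hn]
    have : 2 * (q * (n / q) + 1) = 2 + q * (2 * (n / q)) := by ring
    rw [this, Nat.add_mul_mod_self_left, Nat.mod_eq_of_lt (by omega)]
  rw [e2, h6] at h7
  subst h7
  refine ⟨by omega, hk.symm⟩

theorem main (hNpMod : PSpStmt.NpMod.{u}) (hNpH : PSpStmt.NpH.{u}) : PSpStmt.NP.{u} := by
  intro G _ p q m₁ m₂ h
  have := h.fin
  have : Fact p.Prime := ⟨h.pp⟩
  have hmod : Nat.card (Sylow p G) % q = 1 := by
    have h1 := hNpMod G p q m₁ m₂ h
    have h2 : Nat.card (Sylow p G) % q = 1 % q := h1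
    rw [h2]
    exact Nat.mod_eq_of_lt (by have := h.q_ge; omega)
  have key : ∀ P : Sylow p G,
      Nat.card (Subgroup.normalizer ((P : Subgroup G) : Set G)) * 2 = q * (q - 1) ∧
        Nat.card (Sylow p G) = q + 1 := by
    intro P
    obtain ⟨h', hN, k, hk⟩ := hNpH G p q m₁ m₂ h P
    have hidx : Nat.card (Sylow p G) = (Subgroup.normalizer ((P : Subgroup G) : Set G)).index :=
      Sylow.card_eq_index_normalizer P
    have hmul := Subgroup.index_mul_card (Subgroup.normalizer ((P : Subgroup G) : Set G))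
    rw [← hidx, hN, h.card] at hmul
    obtain ⟨e1, e2⟩ := arith q (Nat.card (Sylow p G)) h' k m₁ m₂ h.q_ge hk hmul h.four_mul hmod
    refine ⟨?_, e1⟩
    rw [hN, mul_assoc, e2]
  obtain ⟨P⟩ : Nonempty (Sylow p G) := inferInstance
  exact ⟨fun P' => (key P').1, (key P).2⟩

end Cfsg.Agent.Lib.Helper31.PSpNP
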