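import Cfsg.Agent.Lib.Helper31.PSpTools

set_option autoImplicit false

namespace Cfsg.Agent.Lib.Helper31.PSpNPH

open Cfsg.Agent.Lib.Helper98 Cfsg.Agent.Lib.Helper98.PSpStmt Cfsg.Agent.Lib.Helper31.PSpTools

universe u

/-- orbit counting: if `h'` divides the size of every orbit, it divides the size of the set. -/
theorem dvd_card_of_dvd_orbits {A : Type u} {X : Type u} [Group A] [Finite A] [Finite X]
    [MulAction A X] (h' : ℕ) (hdvd : ∀ u : X, h' ∣ Nat.card (MulAction.orbit A u)) :
    h' ∣ Nat.card X := by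
  classical
  have : Fintype (MulAction.orbitRel.Quotient A X) := Fintype.ofFinite _
  rw [Nat.card_congr (MulAction.selfEquivSigmaOrbits' A X), Nat.card_sigma]
  apply Finset.dvd_sum
  intro ω _
  induction ω using Quotient.inductionOn' with
  | h a => exact hdvd a

theorem main (hCentP : PSpStmt.CentP.{u}) (hExpP : PSpStmt.ExpP.{u}) (hCardP : PSpStmt.CardP.{u}) :
    PSpStmt.NpH.{u} := by
  classical
  intro G _ p q m₁ m₂ h P
  have := h.fin
  have : Fact p.Prime := ⟨h.pp⟩
  have hq : Nat.card (P : Subgroup G) = q := hCardP G p q m₁ m₂ h P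
  have hqpos : 0 < q := by have := h.q_ge; omega
  set N := Subgroup.normalizer ((P : Subgroup G) : Set G) with hNdef
  have hPN : (P : Subgroup G) ≤ N := Subgroup.le_normalizer
  have hdvdN : q ∣ Nat.card N := by
    rw [← hq]; exact Subgroup.card_dvd_of_le hPN
  obtain ⟨h', hh'⟩ := hdvdN
  refine ⟨h', hh', ?_⟩
  -- the set `P ∖ {1}` with the conjugation action of `N`
  let X : Set G := {u | u ∈ (P : Subgroup G) ∧ u ≠ 1}
  have hX : ∀ n ∈ N, ∀ u ∈ X, n * u * n⁻¹ ∈ X := by
    intro n hn u hu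
    refine ⟨((Subgroup.mem_normalizer_iff.mp hn) u).mp hu.1, ?_⟩
    intro h1
    apply hu.2
    calc u = n⁻¹ * (n * u * n⁻¹) * n := by group
      _ = 1 := by rw [h1]; group
  let inst : MulAction ↥N ↥X := conjAct N X hX
  have hsmul : ∀ (n : ↥N) (u : ↥X), ((n • u : ↥X) : G) = (n : G) * (u : G) * (n : G)⁻¹ :=
    fun _ _ => rfl
  -- card X = q - 1
  have hcardX : Nat.card ↥X = q - 1 := by
    let e : ↥X ≃ {b : ↥(P : Subgroup G) // b ≠ 1} :=
      { toFun := fun u => ⟨⟨u.1, u.2.1⟩, fun h1 => u.2.2 (congrArg Subtype.val h1)⟩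
        invFun := fun b => ⟨b.1.1, b.1.2, fun h1 => b.2 (Subtype.ext h1)⟩
        left_inv := fun _ => rfl
        right_inv := fun _ => rfl }
    have e2 : Option {b : ↥(P : Subgroup G) // b ≠ 1} ≃ ↥(P : Subgroup G) := Equiv.optionSubtypeNe 1
    have h1 : Nat.card {b : ↥(P : Subgroup G) // b ≠ 1} + 1 = q := by
      rw [← hq, ← Nat.card_congr e2, Finite.card_option]
    rw [Nat.card_congr e]
    omega
  rw [← hcardX]
  apply dvd_card_of_dvd_orbits (A := ↥N)
  intro u
  -- orbit-stabiliser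
  have hos : Nat.card (MulAction.orbit ↥N u) * Nat.card (MulAction.stabilizer ↥N u) = q * h' := by
    rw [← hh', ← Nat.card_prod]
    exact Nat.card_congr (MulAction.orbitProdStabilizerEquivGroup ↥N u)
  -- the stabiliser lies in `P`
  have hup : (u : G) ^ p = 1 := hExpP G p q m₁ m₂ h P P.2 u u.2.1
  have hou : orderOf (u : G) = p := orderOf_eq_prime hup u.2.2
  have hstab : (MulAction.stabilizer ↥N u).map N.subtype ≤ (P : Subgroup G) := by
    rintro g ⟨n, hn, rfl⟩
    have h1 : (n : G) * (u : G) * (n : G)⁻¹ = (u : G) := by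
      have := congrArg Subtype.val (MulAction.mem_stabilizer_iff.mp hn)
      rw [hsmul] at this
      exact this
    have hcomm : Commute (n : G) (u : G) := by
      show (n : G) * (u : G) = (u : G) * (n : G)
      calc (n : G) * (u : G) = ((n : G) * (u : G) * (n : G)⁻¹) * (n : G) := by group
        _ = (u : G) * (n : G) := by rw [h1]
    have hnp : (n : G) ^ p = 1 := hCentP G p q m₁ m₂ h (u : G) (n : G) hou hcomm
    exact pelt_mem P (n : G) n.2 (isPGroup_zpowers_of_pow _ hnp)
  have hsd : Nat.card (MulAction.stabilizer ↥N u) ∣ q := by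
    rw [← hq, ← Subgroup.card_map_of_injective (Subgroup.subtype_injective N)]
    exact Subgroup.card_dvd_of_le hstab
  obtain ⟨d, hd⟩ := hsd
  have hspos : 0 < Nat.card (MulAction.stabilizer ↥N u) := Nat.card_pos
  refine ⟨d, ?_⟩
  apply Nat.eq_of_mul_eq_mul_right hspos
  rw [hos, hd]; ring

end Cfsg.Agent.Lib.Helper31.PSpNPH
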