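import Cfsg.Agent.Lib.Helper31.PSpTools

set_option autoImplicit false

namespace Cfsg.Agent.Lib.Helper31.PSpNPMOD

open Cfsg.Agent.Lib.Helper98 Cfsg.Agent.Lib.Helper98.PSpStmt Cfsg.Agent.Lib.Helper31.PSpTools

universe u

theorem main (hTI : PSpStmt.TI.{u}) (hCardP : PSpStmt.CardP.{u}) : PSpStmt.NpMod.{u} := by
  classical
  intro G _ p q m₁ m₂ h
  have := h.fin
  have : Fact p.Prime := ⟨h.pp⟩
  obtain ⟨P⟩ : Nonempty (Sylow p G) := inferInstance
  have hq : Nat.card (P : Subgroup G) = q := hCardP G p q m₁ m₂ h P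
  let S : SubMulAction ↥(P : Subgroup G) (Sylow p G) :=
    { carrier := {P' | P' ≠ P}
      smul_mem' := by
        intro u P' hP' heq
        apply hP'
        have hu : (u : G) • P = P :=
          Sylow.smul_eq_iff_mem_normalizer.mpr (Subgroup.le_normalizer u.2)
        have h1 : (u : G) • P' = (u : G) • P := by
          rw [hu]; exact heq
        exact smul_left_cancel (u : G) h1 }
  have hfree : ∀ b : ↥S, MulAction.stabilizer ↥(P : Subgroup G) b = ⊥ := by
    intro b
    rw [eq_bot_iff]
    intro u hu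
    rw [Subgroup.mem_bot]
    have hu' : (u : G) • (b : Sylow p G) = (b : Sylow p G) := by
      have h1 := congrArg Subtype.val (MulAction.mem_stabilizer_iff.mp hu)
      exact h1
    have hN : (u : G) ∈ Subgroup.normalizer ((((b : Sylow p G) : Subgroup G)) : Set G) :=
      Sylow.smul_eq_iff_mem_normalizer.mp hu'
    have hz : IsPGroup p (Subgroup.zpowers (u : G)) :=
      P.2.to_le (Subgroup.zpowers_le.mpr u.2)
    have hmem : (u : G) ∈ ((b : Sylow p G) : Subgroup G) := pelt_mem _ _ hN hz
    have hbot := hTI G p q m₁ m₂ h (b : Sylow p G) P b.2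
    have h2 : (u : G) ∈ ((b : Sylow p G) : Subgroup G) ⊓ (P : Subgroup G) := ⟨hmem, u.2⟩
    rw [hbot, Subgroup.mem_bot] at h2
    exact Subtype.ext h2
  have e := MulAction.selfEquivOrbitsQuotientProd hfree
  have hcard : Nat.card ↥S =
      Nat.card (Quotient (MulAction.orbitRel ↥(P : Subgroup G) ↥S)) * q := by
    rw [Nat.card_congr e, Nat.card_prod, hq]
  have hopt : Nat.card (Sylow p G) = Nat.card ↥S + 1 := by
    have e2 : Option {b : Sylow p G // b ≠ P} ≃ Sylow p G := Equiv.optionSubtypeNe P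
    rw [← Nat.card_congr e2, Finite.card_option]
    rfl
  rw [hopt, hcard]
  show (_ * q + 1) % q = 1 % q
  rw [Nat.add_comm, Nat.add_mul_mod_self_right]

end Cfsg.Agent.Lib.Helper31.PSpNPMOD
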