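import Mathlib
import Cfsg.Agent.Lib.Helper98.PSpStmt

/-!
Shared tools for the S3421 pieces CP, NPMOD, NPH, NP (helper31).
-/

set_option autoImplicit false

namespace Cfsg.Agent.Lib.Helper31.PSpTools

open scoped Pointwise

universe u

variable {G : Type u} [Group G]

/-- a `p`-element normalising a Sylow `p`-subgroup lies in it. -/
theorem pelt_mem {p : ℕ} [Fact p.Prime] (P : Sylow p G) (c : G)
    (hcN : c ∈ Subgroup.normalizer ((P : Subgroup G) : Set G))
    (hz : IsPGroup p (Subgroup.zpowers c)) : c ∈ (P : Subgroup G) := by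
  have hle : Subgroup.zpowers c ≤ Subgroup.normalizer ((P : Subgroup G) : Set G) := by
    rw [Subgroup.zpowers_le]; exact hcN
  have hsup : IsPGroup p ((P : Subgroup G) ⊔ Subgroup.zpowers c : Subgroup G) :=
    IsPGroup.to_sup_of_normal_left' P.2 hz hle
  have h1 := P.is_maximal' hsup le_sup_left
  have h2 : c ∈ ((P : Subgroup G) ⊔ Subgroup.zpowers c : Subgroup G) :=
    Subgroup.mem_sup_right (Subgroup.mem_zpowers c)
  rw [h1] at h2
  exact h2

theorem isPGroup_zpowers_of_pow {p : ℕ} (c : G) (hc : c ^ p = 1) :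
    IsPGroup p (Subgroup.zpowers c) := by
  rintro ⟨g, hg⟩
  refine ⟨1, ?_⟩
  apply Subtype.ext
  obtain ⟨n, rfl⟩ := Subgroup.mem_zpowers_iff.mp hg
  simp only [pow_one, Subgroup.coe_pow, Subgroup.coe_one]
  rw [← zpow_natCast, ← zpow_mul, mul_comm, zpow_mul, zpow_natCast, hc, one_zpow]

/-- `x ∈ P` and `c x c⁻¹ = x` gives `x ∈ c • P`. -/
theorem mem_smul_of_commute {p : ℕ} (P : Sylow p G) (x c : G) (hx : x ∈ (P : Subgroup G))
    (hcx : Commute c x) : x ∈ ((c • P : Sylow p G) : Subgroup G) := by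
  rw [Sylow.coe_subgroup_smul]
  have h1 := Subgroup.smul_mem_pointwise_smul x (MulAut.conj c) (P : Subgroup G) hx
  have h2 : (MulAut.conj c) • x = x := by
    rw [MulAut.smul_def, MulAut.conj_apply, hcx.eq]; group
  rwa [h2] at h1

/-- the conjugation action of a subgroup `N` on an `N`-invariant set. -/
@[reducible] def conjAct (N : Subgroup G) (X : Set G) (hX : ∀ n ∈ N, ∀ u ∈ X, n * u * n⁻¹ ∈ X) :
    MulAction ↥N ↥X where
  smul n u := ⟨(n : G) * (u : G) * (n : G)⁻¹, hX n n.2 u u.2⟩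
  one_smul u := Subtype.ext (by show (1 : G) * (u : G) * (1 : G)⁻¹ = u; simp)
  mul_smul a b u := Subtype.ext (by
    show ((a : G) * (b : G)) * (u : G) * ((a : G) * (b : G))⁻¹ =
      (a : G) * ((b : G) * (u : G) * (b : G)⁻¹) * (a : G)⁻¹
    group)

end Cfsg.Agent.Lib.Helper31.PSpTools
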