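import Cfsg.Agent.Lib.Helper18.QuadStmt

set_option autoImplicit false

namespace Cfsg.Agent.Lib.Helper31.Q87ORDP

universe u

theorem pow_apply {W : Type u} [CommGroup W] (f : MulAut W)
    (hq : ∀ v : W, f (f v) * v = f v * f v) (k : ℕ) :
    ∀ v : W, (f ^ k) v = v * (f v * v⁻¹) ^ k := by
  induction k with
  | zero => intro v; simp
  | succ k ih =>
    intro v
    rw [pow_succ, MulAut.mul_apply, ih (f v)]
    have h1 : f (f v) * (f v)⁻¹ = f v * v⁻¹ := by
      have := hq v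
      calc f (f v) * (f v)⁻¹ = (f (f v) * v) * ((f v)⁻¹ * v⁻¹) := by
            rw [mul_mul_mul_comm]; simp [mul_comm]
        _ = (f v * f v) * ((f v)⁻¹ * v⁻¹) := by rw [this]
        _ = f v * v⁻¹ := by
            rw [mul_assoc, ← mul_assoc (f v) (f v)⁻¹, mul_inv_cancel, one_mul]
    rw [h1, pow_succ]
    calc f v * (f v * v⁻¹) ^ k = v * ((f v * v⁻¹) ^ k * (f v * v⁻¹)) := by
          rw [mul_comm ((f v * v⁻¹) ^ k), ← mul_assoc v, ← mul_assoc v, mul_comm v (f v),
            mul_assoc (f v) v, mul_inv_cancel, mul_one]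

theorem main : Cfsg.Agent.Lib.Helper18.QuadStmt.OrdP.{u} := by
  intro W _ p hW f hq
  ext v
  rw [pow_apply f hq p v, hW, mul_one]
  rfl

end Cfsg.Agent.Lib.Helper31.Q87ORDP
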