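import Cfsg.Agent.Lib.Helper18.QuadStmt
import Cfsg.Agent.S0595
import Cfsg.Agent.Lib.Helper47.Basic
import Cfsg.Agent.Lib.Helper31.Q87ORDP

set_option autoImplicit false

namespace Cfsg.Agent.Lib.Helper31.Q87ABS595

open scoped commutatorElement
open SemidirectProduct

universe u v

/-- A quadratic automorphism fixes `f v * v⁻¹`. -/
theorem fix_diff {W : Type u} [CommGroup W] (f : MulAut W)
    (hq : ∀ v : W, f (f v) * v = f v * f v) (v : W) : f (f v * v⁻¹) = f v * v⁻¹ := by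
  rw [map_mul, map_inv]
  have := hq v
  calc f (f v) * (f v)⁻¹ = (f (f v) * v) * ((f v)⁻¹ * v⁻¹) := by
        rw [mul_mul_mul_comm]; simp [mul_comm]
    _ = (f v * f v) * ((f v)⁻¹ * v⁻¹) := by rw [this]
    _ = f v * v⁻¹ := by
        rw [mul_assoc, ← mul_assoc (f v) (f v)⁻¹, mul_inv_cancel, one_mul]

theorem pow_fix {W : Type u} [CommGroup W] (f : MulAut W) (u : W) (hu : f u = u) (m : ℕ) :
    (f ^ m) u = u := by
  induction m with
  | zero => simp
  | succ m ih => rw [pow_succ, MulAut.mul_apply, hu, ih]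

theorem main : Cfsg.Agent.Lib.Helper18.QuadStmt.Abs595.{u, v} := by
  intro W Q _ _ _ _ p _ hp hW φ hφ a hq hna T
  have hfin : Finite (W ⋊[φ] Q) := Finite.of_equiv _ (SemidirectProduct.equivProd (φ := φ)).symm
  have hVn : ((inl : W →* W ⋊[φ] Q).range).Normal := by
    rw [range_inl_eq_ker_rightHom]; infer_instance
  have hV : Cfsg.IsElementaryAbelian p ((inl : W →* W ⋊[φ] Q).range) := by
    refine ⟨⟨⟨?_⟩⟩, ?_⟩
    · rintro ⟨x, w1, rfl⟩ ⟨y, w2, rfl⟩
      apply Subtype.ext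
      show inl w1 * inl w2 = inl w2 * inl w1
      rw [← map_mul, ← map_mul, mul_comm]
    · rintro x ⟨w, rfl⟩
      rw [← map_pow, hW, map_one]
  have hHV : (inr : Q →* W ⋊[φ] Q).range ≤
      Subgroup.normalizer (((inl : W →* W ⋊[φ] Q).range : Subgroup (W ⋊[φ] Q)) : Set (W ⋊[φ] Q)) := by
    rw [Subgroup.normalizer_eq_top]; exact le_top
  have hcomm : ∀ (q : Q) (w : W), (inr q : W ⋊[φ] Q) * inl w = inl (φ q w) * inr q := by
    intro q w
    rw [inl_aut, mul_assoc, ← map_mul, inv_mul_cancel, map_one, mul_one]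
  have hf : (inr : Q →* W ⋊[φ] Q).range ⊓
      Subgroup.centralizer (((inl : W →* W ⋊[φ] Q).range : Subgroup (W ⋊[φ] Q)) : Set (W ⋊[φ] Q)) = ⊥ := by
    rw [eq_bot_iff]
    rintro g ⟨⟨q, rfl⟩, hg2⟩
    rw [Subgroup.mem_bot]
    have hq1 : φ q = 1 := by
      ext w
      have h1 := (Subgroup.mem_centralizer_iff.mp hg2) (inl w) ⟨w, rfl⟩
      rw [hcomm] at h1
      have h2 : (inl (φ q w) : W ⋊[φ] Q) = inl w := mul_right_cancel h1.symm
      exact inl_injective h2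
    have : q = 1 := hφ (by rw [hq1, map_one])
    rw [this, map_one]
  have hX := hq
  have hquad : ⁅⁅(inl : W →* W ⋊[φ] Q).range, Subgroup.zpowers (inr a : W ⋊[φ] Q)⁆,
      Subgroup.zpowers (inr a : W ⋊[φ] Q)⁆ = ⊥ := by
    rw [Subgroup.commutator_eq_bot_iff_le_centralizer, Subgroup.commutator_le]
    rintro g₁ ⟨w, rfl⟩ g₂ hg₂
    rw [← mem_powers_iff_mem_zpowers] at hg₂
    obtain ⟨n, hn⟩ := hg₂
    have hn' : (inr a : W ⋊[φ] Q) ^ n = g₂ := hn
    rw [← hn']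
    -- the commutator is `inl u` with `u` fixed by `φ a`
    have hcomp : ⁅(inl w : W ⋊[φ] Q), (inr a : W ⋊[φ] Q) ^ n⁆ = inl (w * (φ a ^ n) w⁻¹) := by
      rw [commutatorElement_def, map_mul, ← map_pow φ, inl_aut, ← map_pow]
      simp only [map_inv, mul_assoc]
    have hu : φ a (w * (φ a ^ n) w⁻¹) = w * (φ a ^ n) w⁻¹ := by
      have h1 : w * (φ a ^ n) w⁻¹ = (φ a w⁻¹ * (w⁻¹)⁻¹) ^ n := by
        rw [Cfsg.Agent.Lib.Helper31.Q87ORDP.pow_apply (φ a) hq n w⁻¹, ← mul_assoc, mul_inv_cancel,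
          one_mul]
      rw [h1, map_pow, fix_diff (φ a) hq]
    rw [hcomp, Subgroup.mem_centralizer_iff]
    intro h hh
    rw [SetLike.mem_coe, ← mem_powers_iff_mem_zpowers] at hh
    obtain ⟨m, hm⟩ := hh
    have hm' : (inr a : W ⋊[φ] Q) ^ m = h := hm
    rw [← hm', ← map_pow, hcomm, map_pow, pow_fix (φ a) _ hu m]
  have hna' : (inr a : W ⋊[φ] Q) ∉
      (Cfsg.pCore p ↥((inr : Q →* W ⋊[φ] Q).range)).map ((inr : Q →* W ⋊[φ] Q).range).subtype := by
    rintro ⟨g, hgmem, hgeq⟩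
    have hN := Cfsg.Agent.Lib.Helper47.Basic.pCore_normal p ↥((inr : Q →* W ⋊[φ] Q).range)
    have hP := Cfsg.Agent.Lib.Helper47.Basic.pCore_isPGroup p ↥((inr : Q →* W ⋊[φ] Q).range)
    have hinj : Function.Injective ((inr : Q →* W ⋊[φ] Q).rangeRestrict) := by
      intro x y hxy
      have := congrArg Subtype.val hxy
      exact inr_injective this
    refine hna ((Cfsg.pCore p ↥((inr : Q →* W ⋊[φ] Q).range)).comap
      ((inr : Q →* W ⋊[φ] Q).rangeRestrict)) (hN.comap _) (hP.comap_of_injective _ hinj) ?_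
    rw [Subgroup.mem_comap]
    have : (inr : Q →* W ⋊[φ] Q).rangeRestrict a = g := Subtype.ext hgeq.symm
    rw [this]; exact hgmem
  -- transport the Sylow subgroup
  let e : Q ≃* ↥((inr : Q →* W ⋊[φ] Q).range) := MonoidHom.ofInjective inr_injective
  let T' : Sylow 2 ↥((inr : Q →* W ⋊[φ] Q).range) :=
    T.comapOfInjective (e.symm : ↥((inr : Q →* W ⋊[φ] Q).range) →* Q) e.symm.injective
      (by
        intro x _
        exact ⟨e x, e.symm_apply_apply x⟩)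
  have hres := Cfsg.Agent.S0595.result (p := p) hp ((inl : W →* W ⋊[φ] Q).range)
    ((inr : Q →* W ⋊[φ] Q).range) hV hHV hf (inr a) ⟨a, rfl⟩ hquad hna' T'
  intro hT
  apply hres
  refine ⟨⟨?_⟩⟩
  rintro ⟨x, hx⟩ ⟨y, hy⟩
  apply Subtype.ext
  show x * y = y * x
  have hx' : e.symm x ∈ (T : Subgroup Q) := hx
  have hy' : e.symm y ∈ (T : Subgroup Q) := hy
  have h1 : (⟨e.symm x, hx'⟩ : ↥(T : Subgroup Q)) * ⟨e.symm y, hy'⟩ = ⟨e.symm y, hy'⟩ * ⟨e.symm x, hx'⟩ :=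
    hT.is_comm.comm _ _
  have h2 : e.symm x * e.symm y = e.symm y * e.symm x := congrArg Subtype.val h1
  apply e.symm.injective
  rw [map_mul, map_mul, h2]

end Cfsg.Agent.Lib.Helper31.Q87ABS595
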