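import Cfsg.Agent.Lib.Helper18.QuadStmt

set_option autoImplicit false

namespace Cfsg.Agent.Lib.Helper31.Q87QEXT

open scoped commutatorElement

universe u

theorem main : Cfsg.Agent.Lib.Helper18.QuadStmt.QExt.{u} := by
  intro G _ V A hVc hquad a ha hn v hv
  have hu : a * v * a⁻¹ ∈ V := hn v hv
  have hw : a * (a * v * a⁻¹) * a⁻¹ ∈ V := by
    have := hn _ hu
    simpa [mul_assoc] using this
  have hc : ⁅⁅v, a⁆, a⁆ ∈ ⁅⁅V, A⁆, A⁆ :=
    Subgroup.commutator_mem_commutator (Subgroup.commutator_mem_commutator hv ha) ha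
  rw [hquad, Subgroup.mem_bot] at hc
  -- v * u⁻¹ = u * w⁻¹
  have h1 : v * (a * v * a⁻¹)⁻¹ = (a * v * a⁻¹) * (a * (a * v * a⁻¹) * a⁻¹)⁻¹ := by
    have h2 : ⁅v, a⁆ * a = a * ⁅v, a⁆ := by
      have h3 : ⁅⁅v, a⁆, a⁆ * a * ⁅v, a⁆ = ⁅v, a⁆ * a := by
        rw [commutatorElement_def ⁅v, a⁆ a]; group
      rw [← h3, hc, one_mul]
    have h4 : v * (a * v * a⁻¹)⁻¹ = ⁅v, a⁆ := by
      rw [commutatorElement_def]; group
    have h5 : (a * v * a⁻¹) * (a * (a * v * a⁻¹) * a⁻¹)⁻¹ = a * ⁅v, a⁆ * a⁻¹ := by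
      rw [commutatorElement_def]; group
    rw [h4, h5, ← h2]; group
  have huw := hVc _ hu _ hw
  have hvw := hVc _ hv _ hw
  have huv := hVc _ hu _ hv
  set U := a * v * a⁻¹ with hU
  set Wd := a * U * a⁻¹ with hWd
  have h6 : v = U * Wd⁻¹ * U := by
    calc v = v * U⁻¹ * U := by group
      _ = U * Wd⁻¹ * U := by rw [h1]
  calc Wd * v = Wd * (U * Wd⁻¹ * U) := by rw [← h6]
    _ = (Wd * U) * Wd⁻¹ * U := by group
    _ = (U * Wd) * Wd⁻¹ * U := by rw [huw]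
    _ = U * U := by group

end Cfsg.Agent.Lib.Helper31.Q87QEXT
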