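import Cfsg.Agent.Lib.Helper18.QuadStmt

set_option autoImplicit false

namespace Cfsg.Agent.Lib.Helper31.Q87TRIV

universe u

theorem main : Cfsg.Agent.Lib.Helper18.QuadStmt.Triv.{u} := by
  intro G _ V A h
  rw [Subgroup.commutator_eq_bot_iff_le_centralizer]
  intro v hv
  rw [Subgroup.mem_centralizer_iff]
  intro a ha
  have h1 := h a ha v hv
  calc a * v = a * v * a⁻¹ * a := by group
    _ = v * a := by rw [h1]

end Cfsg.Agent.Lib.Helper31.Q87TRIV
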