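import Mathlib
import Cfsg.Agent.Lib.Helper93.S64Stmt
import Cfsg.Agent.Lib.Helper31.SigBasic

/-!
S1364 / QUOTPRIME (call by helper93): prime action passes to the quotient by a normal subgroup
contained in `H`, and the fixed points are the image of `H ⊓ C(R)`.
-/

set_option autoImplicit false

namespace Cfsg.Agent.Lib.Helper31.S64QUOTPRIME

universe u

open Cfsg.Agent.Lib.Helper93.S64Stmt

theorem main : QuotPrime.{u} := by
  intro X _ _ H R N hNn hNH hcop hprime y hy hy1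
  obtain ⟨x, hxR, rfl⟩ := Subgroup.mem_map.mp hy
  have hx1 : x ≠ 1 := by
    rintro rfl
    exact hy1 (map_one _)
  have hox : orderOf x ≠ 1 := fun h => hx1 (orderOf_eq_one_iff.mp h)
  obtain ⟨r, hr, hrx⟩ := Nat.exists_prime_and_dvd hox
  have : Fact r.Prime := ⟨hr⟩
  have hox0 : orderOf x ≠ 0 := (orderOf_pos x).ne'
  have ho1 : orderOf (x ^ (orderOf x / r)) = r := orderOf_pow_orderOf_div hox0 hrx
  have hx₁R : x ^ (orderOf x / r) ∈ R := R.pow_mem hxR _
  have hx₁1 : x ^ (orderOf x / r) ≠ 1 := by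
    intro h
    rw [h, orderOf_one] at ho1
    exact hr.one_lt.ne ho1
  have hx₁r : (x ^ (orderOf x / r)) ^ r = 1 := by
    have := pow_orderOf_eq_one (x ^ (orderOf x / r))
    rwa [ho1] at this
  have hrN : ¬ r ∣ Nat.card N := by
    intro h
    have h1 : r ∣ Nat.card H := h.trans (Subgroup.card_dvd_of_le hNH)
    have h2 : r ∣ Nat.card R := hrx.trans (Subgroup.orderOf_dvd_natCard R hxR)
    have h3 : r ∣ Nat.gcd (Nat.card H) (Nat.card R) := Nat.dvd_gcd h1 h2
    rw [Nat.Coprime.gcd_eq_one hcop] at h3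
    exact hr.one_lt.ne' (Nat.dvd_one.mp h3)
  have hpi : ∀ g : X, QuotientGroup.mk' N g = 1 ↔ g ∈ N := fun g => QuotientGroup.eq_one_iff g
  apply le_antisymm
  · intro z hz
    obtain ⟨hzH, hzC⟩ := Subgroup.mem_inf.mp hz
    obtain ⟨h, hhH, rfl⟩ := Subgroup.mem_map.mp hzH
    rw [Subgroup.mem_centralizer_singleton_iff] at hzC
    have hc0 : Commute (QuotientGroup.mk' N h) (QuotientGroup.mk' N x) := hzC
    have hc1 : Commute (QuotientGroup.mk' N h) (QuotientGroup.mk' N (x ^ (orderOf x / r))) := by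
      rw [map_pow]
      exact hc0.pow_right _
    have hmem : h⁻¹ * (x ^ (orderOf x / r) * h * (x ^ (orderOf x / r))⁻¹) ∈ N := by
      rw [← hpi]
      simp only [map_mul, map_inv]
      rw [← hc1.eq]
      group
    obtain ⟨n, hnN, hcomm⟩ := SigBasic.exists_commute_in_coset (x ^ (orderOf x / r)) hx₁r N hrN
      (fun n hn => hNn.conj_mem n hn _) h hmem
    have hmem2 : h * n ∈ H ⊓ Subgroup.centralizer ({x ^ (orderOf x / r)} : Set X) :=
      ⟨H.mul_mem hhH (hNH hnN), Subgroup.mem_centralizer_singleton_iff.mpr hcomm.symm⟩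
    rw [hprime _ hx₁R hx₁1] at hmem2
    refine Subgroup.mem_map.mpr ⟨h * n, hmem2, ?_⟩
    rw [map_mul, (hpi n).mpr hnN, mul_one]
  · intro z hz
    obtain ⟨c, hc, rfl⟩ := Subgroup.mem_map.mp hz
    obtain ⟨hcH, hcC⟩ := Subgroup.mem_inf.mp hc
    refine Subgroup.mem_inf.mpr ⟨Subgroup.mem_map_of_mem _ hcH, ?_⟩
    rw [Subgroup.mem_centralizer_singleton_iff]
    rw [Subgroup.mem_centralizer_iff] at hcC
    have h1 := hcC x hxR
    rw [← map_mul, ← map_mul, h1]

end Cfsg.Agent.Lib.Helper31.S64QUOTPRIME
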