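import Mathlib
import Cfsg.Agent.Lib.Helper41.TMTwoStmt

/-! S5987 (r = 2 block, call by helper41) piece TM2NOODD. -/

set_option autoImplicit false

universe u

open scoped Matrix

namespace Cfsg.Agent.Lib.Helper31.TM2NOODD

open Cfsg.Agent.Lib.Helper41.TMTwoStmt
open Cfsg.Agent.Lib.Helper45.OMiStmt (M Aniso FxM NDegM StabM TopNDM)

theorem main : NoOdd.{u} := by
  intro F _ _ hq d x hxx W hW
  by_contra hodd
  rw [Nat.not_even_iff_odd] at hodd
  have hmem : ∀ w ∈ W, Matrix.toLin' x w ∈ W := fun w hw => hW (Submodule.mem_map_of_mem hw)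
  obtain ⟨g, hg⟩ : ∃ g : ↥W →ₗ[F] ↥W, ∀ w : ↥W, ((g w : ↥W) : M d → F) = x *ᵥ (w : M d → F) :=
    ⟨(Matrix.toLin' x).restrict hmem, fun w => by
      rw [LinearMap.coe_restrict_apply, Matrix.toLin'_apply]⟩
  have hgg : g ∘ₗ g = (-1 : F) • LinearMap.id := by
    apply LinearMap.ext
    intro w
    apply Subtype.ext
    rw [LinearMap.comp_apply, hg, hg, LinearMap.smul_apply, LinearMap.id_apply,
      Submodule.coe_smul, neg_one_smul, Matrix.mulVec_mulVec, hxx, Matrix.neg_mulVec,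
      Matrix.one_mulVec]
  have hdet : LinearMap.det g * LinearMap.det g = (-1 : F) ^ Module.finrank F ↥W := by
    rw [← LinearMap.det_comp, hgg, LinearMap.det_smul, LinearMap.det_id, mul_one]
  rw [hodd.neg_one_pow] at hdet
  have hsq : IsSquare (-1 : F) := ⟨LinearMap.det g, hdet.symm⟩
  rw [FiniteField.isSquare_neg_one_iff] at hsq
  exact hsq hq

end Cfsg.Agent.Lib.Helper31.TM2NOODD
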