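import Mathlib
import Cfsg.Agent.Lib.Helper44.TSStmt
import Cfsg.Agent.Lib.Helper93.HypB1

/-! S5972 piece B1E (assembly, `i` even): an invariant totally singular `m`-space. -/

set_option autoImplicit false

namespace Cfsg.Agent.Lib.Helper31.TSB1E

universe u

open Cfsg.Agent.Lib.Helper37.HypStmt Cfsg.Agent.Lib.Helper37.HypStmt2 Cfsg.Agent.Lib.Helper44.TSStmt
open Cfsg.Agent.Lib.Helper93.HypB1

/-- arithmetic core of B1E -/
theorem arithE (d m i t f0 b : ℕ) (hn : f0 + b * i = 2 * d + 1)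
    (H1 : 2 * (m % i) < (2 * d + 1) % i) (H2 : t + 2 * (m / i) ≤ (2 * d + 1) / i) :
    (min (m / i) ((b + 1 - t) / 2) = 0 ∨
        i * (2 * min (m / i) ((b + 1 - t) / 2) + t) + f0 ≤ 2 * d + 1 + i) ∧
      i * min (m / i) ((b + 1 - t) / 2) ≤ m ∧
      2 * (m - i * min (m / i) ((b + 1 - t) / 2)) < f0 := by
  have hm : i * (m / i) + m % i = m := Nat.div_add_mod m i
  have hN : i * ((2 * d + 1) / i) + (2 * d + 1) % i = 2 * d + 1 := Nat.div_add_mod (2 * d + 1) i
  have hν : (2 * d + 1) % i ≤ f0 := by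
    rw [← hn, Nat.add_mul_mod_self_right]
    exact Nat.mod_le f0 i
  have hP : i * t + 2 * (i * (m / i)) ≤ i * ((2 * d + 1) / i) := by
    have h1 := Nat.mul_le_mul_left i H2
    have h2 : i * (t + 2 * (m / i)) = i * t + 2 * (i * (m / i)) := by ring
    omega
  rcases Nat.le_total (m / i) ((b + 1 - t) / 2) with h | h
  · rw [Nat.min_eq_left h]
    refine ⟨?_, by omega, by omega⟩
    by_cases h0 : m / i = 0
    · left; exact h0
    · right
      have h2 : 2 * (m / i) + t ≤ b + 1 := by omega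
      have h3 := Nat.mul_le_mul_left i h2
      have h4 : i * (b + 1) = b * i + i := by ring
      omega
  · rw [Nat.min_eq_right h]
    have hs : i * ((b + 1 - t) / 2) ≤ i * (m / i) := Nat.mul_le_mul_left i h
    have hb : b ≤ 2 * ((b + 1 - t) / 2) + t := by omega
    have hb' : b * i ≤ 2 * (i * ((b + 1 - t) / 2)) + i * t := by
      have h1 := Nat.mul_le_mul_left i hb
      have h2 : i * (2 * ((b + 1 - t) / 2) + t) = 2 * (i * ((b + 1 - t) / 2)) + i * t := by ring
      have h3 : i * b = b * i := by ring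
      omega
    refine ⟨?_, by omega, by omega⟩
    by_cases h0 : (b + 1 - t) / 2 = 0
    · left; exact h0
    · right
      have h2 : 2 * ((b + 1 - t) / 2) + t ≤ b + 1 := by omega
      have h3 := Nat.mul_le_mul_left i h2
      have h4 : i * (b + 1) = b * i + i := by ring
      omega

theorem main (hIPos : IPos.{u}) (hTop : TopND.{u}) (hFixND : FixND.{u}) (hDim : DimObs.{u})
    (hTsEven : TsEven.{u}) (hTsIn : TsIn.{u}) : B1E.{u} := by
  intro F _ _ p _ _ hodd d m hd hm1 hmd r _ hr2 hrp hiev him H1 H2 x hxO hxord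
  have hxiso : x ∈ Cfsg.isometryGroup F (Cfsg.quadFormOdd d F) := by
    obtain ⟨y, -, rfl⟩ := hxO
    exact y.2
  have hxr : x ^ r = 1 := by rw [← hxord]; exact pow_orderOf_eq_one x
  have hfnd := hFixND F p hodd d r hrp x hxiso hxr
  have hstabtop : Stab (x : Matrix (I d) (I d) F) ⊤ := le_top
  have hdvd := hDim F p hodd d r hr2 hrp x hxiso hxr ⊤ hstabtop (hTop F hodd d)
  have hcardI : Module.finrank F (I d → F) = 2 * d + 1 := by
    rw [Module.finrank_fintype_fun_eq_card, Fintype.card_sum, Fintype.card_sum,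
      Fintype.card_unit, Fintype.card_fin]
    omega
  have htopdim : Module.finrank F ↥(⊤ : Submodule F (I d → F)) = 2 * d + 1 := by
    rw [finrank_top, hcardI]
  have hle : Module.finrank F ↥(Fx (x : Matrix (I d) (I d) F)) ≤ 2 * d + 1 := by
    have h1 := Submodule.finrank_le (Fx (x : Matrix (I d) (I d) F))
    rw [hcardI] at h1
    exact h1
  have hcc : cc (orderOf ((Fintype.card F : ℕ) : ZMod r)) =
      orderOf ((Fintype.card F : ℕ) : ZMod r) := by
    unfold cc
    rw [if_pos hiev]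
  rw [htopdim, top_inf_eq, hcc] at hdvd
  obtain ⟨b, hb⟩ := hdvd
  have hn : Module.finrank F ↥(Fx (x : Matrix (I d) (I d) F)) +
      b * orderOf ((Fintype.card F : ℕ) : ZMod r) = 2 * d + 1 := by
    rw [mul_comm]
    omega
  obtain ⟨hA, hB, hC⟩ := arithE d m (orderOf ((Fintype.card F : ℕ) : ZMod r))
    ((r - 1) / orderOf ((Fintype.card F : ℕ) : ZMod r)) _ b hn H1 H2
  obtain ⟨U, hUstab, hUts, hUdim, hUbot, hUperp⟩ :=
    hTsEven F p hodd d r hr2 hrp hiev x hxiso hxr _ hA
  obtain ⟨W0, hW0le, hW0ts, hW0dim⟩ := hTsIn F hodd d (Fx (x : Matrix (I d) (I d) F)) _ hfnd hC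
  refine ⟨U ⊔ W0, ?_, ?_, stab_sup hUstab (stab_of_le_Fx _ hW0le)⟩
  · have hdisj : U ⊓ W0 = ⊥ := by
      apply le_bot_iff.mp
      rw [← hUbot]
      exact inf_le_inf_left U hW0le
    have h1 := Submodule.finrank_sup_add_finrank_inf_eq U W0
    rw [hdisj, finrank_bot, add_zero, hUdim, hW0dim] at h1
    rw [h1]
    omega
  · intro w hw
    obtain ⟨u, hu, w0, hw0, rfl⟩ := Submodule.mem_sup.mp hw
    have h1 := hUperp u hu w0 (hW0le hw0)
    have h2 : Cfsg.quadFormOdd d F (u + w0) = Cfsg.quadFormOdd d F u + Cfsg.quadFormOdd d F w0 +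
        QuadraticMap.polar (Cfsg.quadFormOdd d F) u w0 := by
      rw [QuadraticMap.polar]
      ring
    rw [h2, hUts u hu, hW0ts w0 hw0, h1]
    simp

end Cfsg.Agent.Lib.Helper31.TSB1E
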