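import Mathlib
import Cfsg.Agent.Lib.Helper44.TSStmt

/-!
# S5972 / INVPAR (call by helper44)

An involution of `Omega_(2d+1)(q)`, `q` odd, has a `-1`-eigenspace of even dimension.
-/

set_option autoImplicit false

universe u

open scoped Matrix

namespace Cfsg.Agent.Lib.Helper31.TSINVPAR

open Cfsg.Agent.Lib.Helper37.HypStmt Cfsg.Agent.Lib.Helper37.HypStmt2
open Cfsg.Agent.Lib.Helper44.TSStmt

/-- The determinant of a linear involution is `(-1) ^ dim ker (e + 1)`. -/
theorem det_invol {F : Type*} [Field F] {V : Type*} [AddCommGroup V] [Module F V]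
    [FiniteDimensional F V] (e : V →ₗ[F] V) (he : e ∘ₗ e = LinearMap.id) :
    LinearMap.det e = (-1) ^ Module.finrank F ↥(LinearMap.ker (e + LinearMap.id)) := by
  have hee : ∀ v, e (e v) = v := fun v => LinearMap.congr_fun he v
  have hcomap : LinearMap.ker (e + LinearMap.id) ≤ (LinearMap.ker (e + LinearMap.id)).comap e := by
    intro v hv
    rw [Submodule.mem_comap, LinearMap.mem_ker]
    rw [LinearMap.mem_ker] at hv
    have h1 : (e + LinearMap.id : V →ₗ[F] V) (e v) = e ((e + LinearMap.id : V →ₗ[F] V) v) := by
      simp only [LinearMap.add_apply, LinearMap.id_apply, map_add]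
    rw [h1, hv, map_zero]
  rw [LinearMap.det_eq_det_mul_det (LinearMap.ker (e + LinearMap.id)) e hcomap]
  have h1 : e.restrict (p := LinearMap.ker (e + LinearMap.id))
      (q := LinearMap.ker (e + LinearMap.id)) hcomap = (-1 : F) • LinearMap.id := by
    apply LinearMap.ext
    intro w
    apply Subtype.ext
    have hw := w.2
    rw [LinearMap.mem_ker, LinearMap.add_apply, LinearMap.id_apply] at hw
    rw [LinearMap.coe_restrict_apply, LinearMap.smul_apply, LinearMap.id_apply,
      Submodule.coe_smul, neg_one_smul]
    exact eq_neg_of_add_eq_zero_left hw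
  have h2 : (LinearMap.ker (e + LinearMap.id)).mapQ (LinearMap.ker (e + LinearMap.id)) e hcomap
      = LinearMap.id := by
    apply LinearMap.ext
    intro q
    induction q using Submodule.Quotient.induction_on with
    | _ v =>
      rw [Submodule.mapQ_apply, LinearMap.id_apply, Submodule.Quotient.eq, LinearMap.mem_ker,
        map_sub, LinearMap.add_apply, LinearMap.add_apply, LinearMap.id_apply, LinearMap.id_apply,
        hee]
      abel
  rw [h1, h2, LinearMap.det_smul, LinearMap.det_id, LinearMap.det_id, mul_one, mul_one]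

theorem main : InvPar.{u} := by
  intro F _ _ hodd d x hx hx2
  classical
  have h2 : (2 : F) ≠ 0 := by
    intro h2
    have hc := Nat.cast_card_eq_zero F
    obtain ⟨k, hk⟩ := hodd
    rw [hk] at hc
    push_cast at hc
    rw [h2, zero_mul, zero_add] at hc
    exact one_ne_zero hc
  have hdet : Matrix.GeneralLinearGroup.det x = 1 := by
    unfold Cfsg.Geo.omegaGL at hx
    obtain ⟨g, hg, rfl⟩ := Subgroup.mem_map.1 hx
    have := Abelianization.commutator_subset_ker
      (Matrix.GeneralLinearGroup.det.comp
        (Cfsg.isometryGroup F (Cfsg.quadFormOdd d F)).subtype) hg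
    exact MonoidHom.mem_ker.1 this
  have hdet' : Matrix.det (x : Matrix (I d) (I d) F) = 1 := by
    have := congrArg Units.val hdet
    rwa [Matrix.GeneralLinearGroup.val_det_apply, Units.val_one] at this
  have hinv : (Matrix.toLin' (x : Matrix (I d) (I d) F)) ∘ₗ
      (Matrix.toLin' (x : Matrix (I d) (I d) F)) = LinearMap.id := by
    rw [← Matrix.toLin'_mul, ← Matrix.toLin'_one]
    congr 1
    have := congrArg Units.val hx2
    rwa [pow_two, Units.val_mul, Units.val_one] at this
  have hkey := det_invol (Matrix.toLin' (x : Matrix (I d) (I d) F)) hinv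
  rw [LinearMap.det_toLin', hdet'] at hkey
  unfold Fm
  by_contra hne
  rw [Nat.not_even_iff_odd] at hne
  rw [hne.neg_one_pow] at hkey
  apply h2
  have : (2 : F) = 1 + 1 := by norm_num
  rw [this]
  nth_rewrite 1 [hkey]
  ring

end Cfsg.Agent.Lib.Helper31.TSINVPAR
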