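import Mathlib
import Cfsg.Agent.Lib.Helper31.ZSBasic
import Cfsg.Agent.Lib.Helper31.HypGen

/-!
S1187 and S1253 modulo the Z*-theorem (helper31): invariant Sylow subgroups for an isolated
involution.

* `exists_invariant_sylow_ge` : every `z`-invariant `p`-subgroup (`p` odd) lies in a `z`-invariant
  Sylow `p`-subgroup
* `s1187` : maximal `z`-invariant `p`-subgroups are Sylow
* `card_inverted` : `|P : C_P(z)|` is the number of elements of `P` inverted by `z`
* `s1253`
-/

set_option autoImplicit false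
open Cfsg

namespace Cfsg.Agent.Lib.Helper31.ZSSyl

open Cfsg.Agent.Lib.Helper31.ZSBasic Cfsg.Agent.Lib.Helper31.SigBasic
open Cfsg.Agent.Lib.Helper31.InvSylow

universe u

theorem zpowers_isPGroup {G : Type*} [Group G] {z : G} (hz : orderOf z = 2) :
    IsPGroup 2 (Subgroup.zpowers z) := by
  refine IsPGroup.of_card (n := 1) ?_
  rw [Nat.card_zpowers, hz, pow_one]

theorem zpowers_conj_mem {G : Type*} [Group G] [Finite G] {z : G} (K : Subgroup G)
    (h : ∀ k ∈ K, z * k * z⁻¹ ∈ K) : ∀ a ∈ Subgroup.zpowers z, ∀ k ∈ K, a * k * a⁻¹ ∈ K := by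
  have hn : z ∈ Subgroup.normalizer (K : Set G) := mem_normalizer_of_conj_mem K z h
  have hle : Subgroup.zpowers z ≤ Subgroup.normalizer (K : Set G) := by
    rw [Subgroup.zpowers_le]; exact hn
  intro a ha k hk
  exact conj_mem_of_mem_normalizer (hle ha) hk

/-- Modulo the Z*-theorem: every `z`-invariant `p`-subgroup, `p` odd, of a group with an isolated
involution `z` lies in a `z`-invariant Sylow `p`-subgroup. -/
theorem exists_invariant_sylow_ge (ZS : ZStarHyp.{u}) {G : Type u} [Group G] [Finite G] (z : G)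
    (hz : IsIsolatedInvolution z) {p : ℕ} [hp : Fact p.Prime] (hp2 : p ≠ 2) (R : Subgroup G)
    (hR : IsPGroup p R) (hzR : ∀ r ∈ R, z * r * z⁻¹ ∈ R) :
    ∃ S : Subgroup G, R ≤ S ∧ Nat.card S = p ^ (Nat.card G).factorization p ∧
      ∀ s ∈ S, z * s * z⁻¹ ∈ S := by
  obtain ⟨P, hRP⟩ := hR.exists_le_sylow
  have hPcard : Nat.card (P : Subgroup G) = p ^ (Nat.card G).factorization p :=
    Sylow.card_eq_multiplicity P
  haveI hOn : (oddCore G).Normal := oddCore_normal
  set K : Subgroup G := oddCore G ⊔ (P : Subgroup G) with hK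
  have hPK : (P : Subgroup G) ≤ K := le_sup_right
  have hOK : oddCore G ≤ K := le_sup_left
  -- K has odd order
  have hKodd : ¬ 2 ∣ Nat.card K := by
    have hdvd : Nat.card K ∣ Nat.card (oddCore G) * Nat.card (P : Subgroup G) := by
      apply card_sup_dvd
      rw [Subgroup.normalizer_eq_top]
      exact le_top
    intro h2
    have h3 := (Nat.Prime.dvd_mul Nat.prime_two).mp (h2.trans hdvd)
    rcases h3 with h3 | h3
    · exact (Nat.not_even_iff_odd.mpr (oddCore_odd (G := G))) (even_iff_two_dvd.mpr h3)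
    · rw [hPcard] at h3
      have := (Nat.prime_dvd_prime_iff_eq Nat.prime_two hp.1).mp
        (Nat.prime_two.dvd_of_dvd_pow h3)
      exact hp2 this.symm
  -- K is z-invariant
  have hzK : ∀ k ∈ K, z * k * z⁻¹ ∈ K := by
    have hmap : K.map (MulAut.conj z).toMonoidHom ≤ K := by
      rw [hK, Subgroup.map_sup]
      apply sup_le
      · rintro _ ⟨x, hx, rfl⟩
        exact hOK (hOn.conj_mem x hx z)
      · rintro _ ⟨x, hx, rfl⟩
        show z * x * z⁻¹ ∈ K
        have h1 : z * x * z⁻¹ * x⁻¹ ∈ oddCore G := zstar_isolated ZS hz x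
        have h2 : z * x * z⁻¹ = (z * x * z⁻¹ * x⁻¹) * x := by group
        rw [h2]
        exact K.mul_mem (hOK h1) (hPK hx)
    intro k hk
    exact hmap ⟨k, hk, rfl⟩
  obtain ⟨S, hRS, hSK, hScard, hSA⟩ := Cfsg.Agent.Lib.Helper31.InvSylow.exists_invariant_sylow_ge
    (p := 2) (Subgroup.zpowers z) K (zpowers_isPGroup hz.1) hKodd (zpowers_conj_mem K hzK) p R
    (hRP.trans hPK) hR (zpowers_conj_mem R hzR)
  refine ⟨S, hRS, ?_, fun s hs => hSA z (Subgroup.mem_zpowers z) s hs⟩
  rw [hScard, factorization_eq_of_le K (P : Subgroup G) hPK hPcard]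

/-- S1187 modulo the Z*-theorem. -/
theorem s1187 (ZS : ZStarHyp.{u}) {G : Type u} [Group G] [Finite G] (z : G)
    (hz : IsIsolatedInvolution z) {p : ℕ} [hp : Fact p.Prime] (Q : Subgroup G) (hQ : IsPGroup p Q)
    (hzQ : z ∈ Subgroup.normalizer (Q : Set G))
    (hmax : ∀ R : Subgroup G, IsPGroup p R → z ∈ Subgroup.normalizer (R : Set G) → Q ≤ R → R = Q) :
    ∃ P : Sylow p G, (P : Subgroup G) = Q := by
  by_cases hp2 : p = 2
  · subst hp2
    have hle : Subgroup.zpowers z ≤ Subgroup.normalizer (Q : Set G) := by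
      rw [Subgroup.zpowers_le]; exact hzQ
    have hsup : IsPGroup 2 (Q ⊔ Subgroup.zpowers z : Subgroup G) :=
      hQ.to_sup_of_normal_left' (zpowers_isPGroup hz.1) hle
    obtain ⟨P, hP⟩ := hsup.exists_le_sylow
    have hzP : z ∈ (P : Subgroup G) := hP (le_sup_right (a := Q) (Subgroup.mem_zpowers z))
    exact ⟨P, hmax P P.2 (Subgroup.le_normalizer hzP) (le_sup_left.trans hP)⟩
  · obtain ⟨S, hQS, hScard, hzS⟩ := exists_invariant_sylow_ge ZS z hz hp2 Q hQ
      (fun r hr => conj_mem_of_mem_normalizer hzQ hr)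
    have hSp : IsPGroup p S := IsPGroup.of_card hScard
    have hSQ := hmax S hSp (mem_normalizer_of_conj_mem S z hzS) hQS
    refine ⟨Sylow.ofCard Q (by rw [← hSQ]; exact hScard), ?_⟩
    exact Sylow.coe_ofCard Q _

section inverted

variable {G : Type*} [Group G]

/-- In a subgroup `P` of odd order normalized by the involution `z`, the index of `C_P(z)` is the
number of elements of `P` inverted by `z`. -/
theorem card_inverted [Finite G] {z : G} (hz2 : orderOf z = 2) (P : Subgroup G)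
    (hodd : Odd (Nat.card P)) (hzP : z ∈ Subgroup.normalizer (P : Set G)) :
    (P ⊓ Subgroup.centralizer ({z} : Set G)).relIndex P =
      Nat.card {x : G // x ∈ P ∧ z * x * z⁻¹ = x⁻¹} := by
  have hzz : z * z = 1 := mul_self_of_orderOf_two hz2
  have hzi : z⁻¹ = z := inv_of_orderOf_two hz2
  set D : Subgroup G := P ⊓ Subgroup.centralizer ({z} : Set G) with hD
  obtain ⟨m, hm⟩ := hodd
  have hpow : ∀ x ∈ P, x ^ (2 * m + 1) = 1 := by
    intro x hx
    have h := pow_card_eq_one' (G := P) (x := ⟨x, hx⟩)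
    rw [hm] at h
    have := congrArg Subtype.val h
    simpa using this
  -- square roots are unique in P
  have hsq : ∀ x ∈ P, ∀ y ∈ P, x * x = y * y → x = y := by
    intro x hx y hy hxy
    have e : ∀ t ∈ P, t = (t * t) ^ (m + 1) := by
      intro t ht
      rw [← pow_two, ← pow_mul, show 2 * (m + 1) = (2 * m + 1) + 1 by ring, pow_succ, hpow t ht,
        one_mul]
    rw [e x hx, e y hy, hxy]
  have hDmem : ∀ c : G, c ∈ D ↔ c ∈ P ∧ z * c * z⁻¹ = c := by
    intro c
    rw [hD, Subgroup.mem_inf, Subgroup.mem_centralizer_singleton_iff]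
    constructor
    · rintro ⟨h1, h2⟩
      refine ⟨h1, ?_⟩
      rw [← h2]; group
    · rintro ⟨h1, h2⟩
      refine ⟨h1, ?_⟩
      calc c * z = z * c * z⁻¹ * z := by rw [h2]
        _ = z * c := by group
  -- the bijection D × I → P
  let f : D × {x : G // x ∈ P ∧ z * x * z⁻¹ = x⁻¹} → P := fun ci =>
    ⟨(ci.1 : G) * (ci.2 : G), P.mul_mem ((hDmem _).mp ci.1.2).1 ci.2.2.1⟩
  have hf : Function.Bijective f := by
    constructor
    · rintro ⟨⟨c, hc⟩, ⟨i, hiP, hi⟩⟩ ⟨⟨c', hc'⟩, ⟨i', hi'P, hi'⟩⟩ h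
      have h0 : c * i = c' * i' := congrArg Subtype.val h
      have hc1 := ((hDmem c).mp hc).2
      have hc1' := ((hDmem c').mp hc').2
      have h1 : c * i⁻¹ = c' * i'⁻¹ := by
        have e1 : z * (c * i) * z⁻¹ = c * i⁻¹ := by
          calc z * (c * i) * z⁻¹ = (z * c * z⁻¹) * (z * i * z⁻¹) := by group
            _ = c * i⁻¹ := by rw [hc1, hi]
        have e2 : z * (c' * i') * z⁻¹ = c' * i'⁻¹ := by
          calc z * (c' * i') * z⁻¹ = (z * c' * z⁻¹) * (z * i' * z⁻¹) := by group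
            _ = c' * i'⁻¹ := by rw [hc1', hi']
        rw [← e1, ← e2, h0]
      have h2 : i * i = i' * i' := by
        calc i * i = (c * i⁻¹)⁻¹ * (c * i) := by group
          _ = (c' * i'⁻¹)⁻¹ * (c' * i') := by rw [h1, h0]
          _ = i' * i' := by group
      have h3 : i = i' := hsq i hiP i' hi'P h2
      subst h3
      have h4 : c = c' := mul_right_cancel h0
      subst h4
      rfl
    · rintro ⟨x, hx⟩
      have hzx : z * x⁻¹ * z⁻¹ ∈ P := conj_mem_of_mem_normalizer hzP (P.inv_mem hx)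
      set t := z * x⁻¹ * z⁻¹ * x with ht
      have htP : t ∈ P := P.mul_mem hzx hx
      have htinv : z * t * z⁻¹ = t⁻¹ := by
        rw [ht]
        have e1 : z * (z * x⁻¹ * z⁻¹ * x) * z⁻¹ = (z * z) * x⁻¹ * z⁻¹ * x * z⁻¹ := by group
        have e2 : (z * x⁻¹ * z⁻¹ * x)⁻¹ = x⁻¹ * z * x * z⁻¹ := by group
        rw [e1, e2, hzz, hzi, one_mul]
      set i := t ^ (m + 1) with hi
      have hiP : i ∈ P := P.pow_mem htP _
      have hii : i * i = t := by
        rw [hi, ← pow_add, show m + 1 + (m + 1) = (2 * m + 1) + 1 by ring, pow_succ, hpow t htP,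
          one_mul]
      have hiinv : z * i * z⁻¹ = i⁻¹ := by
        have h := map_pow (MulAut.conj z) t (m + 1)
        have e1 : MulAut.conj z (t ^ (m + 1)) = z * t ^ (m + 1) * z⁻¹ := rfl
        have e2 : MulAut.conj z t = z * t * z⁻¹ := rfl
        rw [e1, e2, htinv] at h
        rw [hi, h, inv_pow]
      have hcP : x * i⁻¹ ∈ P := P.mul_mem hx (P.inv_mem hiP)
      have hcC : z * (x * i⁻¹) * z⁻¹ = x * i⁻¹ := by
        have e1 : z * (x * i⁻¹) * z⁻¹ = (z * x * z⁻¹) * (z * i * z⁻¹)⁻¹ := by group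
        rw [e1, hiinv, inv_inv]
        have e2 : z * x * z⁻¹ * t = x := by
          rw [ht]; group
        have e3 : z * x * z⁻¹ = x * t⁻¹ := by
          rw [eq_mul_inv_iff_mul_eq]; exact e2
        have e4 : t⁻¹ * i = i⁻¹ := by
          rw [← hii]; group
        rw [e3, mul_assoc, e4]
      refine ⟨⟨⟨x * i⁻¹, (hDmem _).mpr ⟨hcP, hcC⟩⟩, ⟨i, hiP, hiinv⟩⟩, ?_⟩
      apply Subtype.ext
      show x * i⁻¹ * i = x
      group
  have hcard : Nat.card D * Nat.card {x : G // x ∈ P ∧ z * x * z⁻¹ = x⁻¹} = Nat.card P := by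
    rw [← Nat.card_prod]
    exact Nat.card_congr (Equiv.ofBijective f hf)
  have h2 := Cfsg.Agent.Lib.Helper31.HypGen.card_mul_relIndex D P inf_le_left
  have hDpos : 0 < Nat.card D := Nat.card_pos
  exact Nat.eq_of_mul_eq_mul_left hDpos (h2.trans hcard.symm)

end inverted

/-- S1253 modulo the Z*-theorem. -/
theorem s1253 (ZS : ZStarHyp.{u}) {G : Type u} [Group G] [Finite G] (z : G)
    (hz : IsIsolatedInvolution z) {p : ℕ} [hp : Fact p.Prime] (hp2 : p ≠ 2) (P : Sylow p G)
    (hzP : z ∈ Subgroup.normalizer ((P : Subgroup G) : Set G)) :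
    ¬ p ∣ ((P : Subgroup G) ⊓ Subgroup.centralizer ({z} : Set G)).relIndex
        (Subgroup.centralizer ({z} : Set G)) ∧
      ((P : Subgroup G) ⊓ Subgroup.centralizer ({z} : Set G)).relIndex (P : Subgroup G) =
        Nat.card {x : G // x ∈ P ∧ z * x * z⁻¹ = x⁻¹} := by
  have hPcard : Nat.card (P : Subgroup G) = p ^ (Nat.card G).factorization p :=
    Sylow.card_eq_multiplicity P
  have hPodd : Odd (Nat.card (P : Subgroup G)) := by
    rw [hPcard]
    exact Odd.pow (hp.1.odd_of_ne_two hp2)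
  refine ⟨?_, card_inverted hz.1 (P : Subgroup G) hPodd hzP⟩
  set C : Subgroup G := Subgroup.centralizer ({z} : Set G) with hC
  have hmemC : ∀ x : G, x ∈ C ↔ x * z = z * x := by
    intro x; rw [hC, Subgroup.mem_centralizer_singleton_iff]
  -- a Sylow p-subgroup of C
  obtain ⟨S₀⟩ : Nonempty (Sylow p C) := inferInstance
  set S₀' : Subgroup G := (S₀ : Subgroup C).map C.subtype with hS₀'
  have hS₀'C : S₀' ≤ C := Subgroup.map_subtype_le _
  have hS₀'p : IsPGroup p S₀' := S₀.2.map C.subtype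
  have hS₀'card : Nat.card S₀' = p ^ (Nat.card C).factorization p := by
    rw [hS₀', Subgroup.card_map_of_injective C.subtype_injective]
    exact Sylow.card_eq_multiplicity S₀
  have hzS₀' : ∀ r ∈ S₀', z * r * z⁻¹ ∈ S₀' := by
    intro r hr
    have h := (hmemC r).mp (hS₀'C hr)
    have e : z * r * z⁻¹ = r := by
      rw [← h]; group
    rw [e]; exact hr
  obtain ⟨S', hS₀S', hS'card, hzS'⟩ := exists_invariant_sylow_ge ZS z hz hp2 S₀' hS₀'p hzS₀'
  -- S' = g P g⁻¹
  obtain ⟨g, -, hg⟩ := sylow_conj (⊤ : Subgroup G) p (P : Subgroup G) S' le_top le_top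
    (by rw [hPcard, Subgroup.card_top]) (by rw [hS'card, Subgroup.card_top])
  have hgP : ∀ x ∈ (P : Subgroup G), g * x * g⁻¹ ∈ S' := fun x hx => hg ▸ ⟨x, hx, rfl⟩
  have hgS' : ∀ s ∈ S', g⁻¹ * s * g ∈ (P : Subgroup G) := by
    intro s hs
    rw [← hg] at hs
    obtain ⟨x, hx, rfl⟩ := hs
    have e : g⁻¹ * ((MulAut.conj g).toMonoidHom x) * g = x := by
      show g⁻¹ * (g * x * g⁻¹) * g = x
      group
    rw [e]; exact hx
  -- z' = g⁻¹ z g normalizes P
  set z' := g⁻¹ * z * g⁻¹⁻¹ with hz'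
  have hz'P : z' ∈ Subgroup.normalizer ((P : Subgroup G) : Set G) := by
    apply mem_normalizer_of_conj_mem
    intro x hx
    have h1 := hzS' _ (hgP x hx)
    have h2 := hgS' _ h1
    have e : z' * x * z'⁻¹ = g⁻¹ * (z * (g * x * g⁻¹) * z⁻¹) * g := by
      rw [hz']; group
    rw [e]; exact h2
  obtain ⟨k, hk⟩ := conj_eq_pow_conj hz g⁻¹
  rw [← hz'] at hk
  set m := (z * z') ^ k with hm
  have hmP : m ∈ Subgroup.normalizer ((P : Subgroup G) : Set G) :=
    Subgroup.pow_mem _ (Subgroup.mul_mem _ hzP hz'P) _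
  set c := g * m with hc
  have hcz : c * z * c⁻¹ = z := by
    have e : c * z * c⁻¹ = g * (m * z * m⁻¹) * g⁻¹ := by rw [hc]; group
    rw [e, ← hk, hz']; group
  have hcC : c ∈ C := by
    rw [hmemC]
    calc c * z = c * z * c⁻¹ * c := by group
      _ = z * c := by rw [hcz]
  -- c⁻¹ S₀' c ≤ P ∩ C
  set D : Subgroup G := (P : Subgroup G) ⊓ C with hD
  have hle : S₀'.map (MulAut.conj c⁻¹).toMonoidHom ≤ D := by
    rintro _ ⟨s, hs, rfl⟩
    show c⁻¹ * s * c⁻¹⁻¹ ∈ D
    rw [inv_inv]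
    refine Subgroup.mem_inf.mpr ⟨?_, ?_⟩
    · have h1 := hgS' s (hS₀S' hs)
      have h2 : m⁻¹ * (g⁻¹ * s * g) * m ∈ (P : Subgroup G) :=
        inv_conj_mem_of_mem_normalizer hmP h1
      have e : c⁻¹ * s * c = m⁻¹ * (g⁻¹ * s * g) * m := by rw [hc]; group
      rw [e]; exact h2
    · exact C.mul_mem (C.mul_mem (C.inv_mem hcC) (hS₀'C hs)) hcC
  have hDp : IsPGroup p D := P.2.to_le inf_le_left
  have hDcard : Nat.card D = p ^ (Nat.card C).factorization p := by
    apply le_antisymm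
    · exact card_le_of_isPGroup D C hDp inf_le_right
    · have h5 : Nat.card (S₀'.map (MulAut.conj c⁻¹).toMonoidHom) = Nat.card S₀' :=
        Subgroup.card_map_of_injective (MulAut.conj c⁻¹).injective
      rw [← hS₀'card, ← h5]
      exact Subgroup.card_le_of_le hle
  have h2 := Cfsg.Agent.Lib.Helper31.HypGen.card_mul_relIndex D C inf_le_right
  intro hdvd
  have h3 : p ^ ((Nat.card C).factorization p + 1) ∣ Nat.card C := by
    have h4 : p ^ ((Nat.card C).factorization p + 1) = Nat.card D * p := by rw [hDcard, pow_succ]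
    rw [h4]
    have h5 := Nat.mul_dvd_mul_left (Nat.card D) hdvd
    rw [h2] at h5
    exact h5
  exact Nat.pow_succ_factorization_not_dvd Nat.card_pos.ne' hp.1 h3

end Cfsg.Agent.Lib.Helper31.ZSSyl
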